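import Mathlib
import Cfsg.Agent.Lib.RootMax.GL
import Cfsg.Agent.Lib.Orth.Normal
import Cfsg.Agent.Lib.OrthE.Compl

/-!
Tools for showing that a geometric subgroup is not maximal: the setwise stabiliser of a finite
set lies strictly between, and the elements of `Ω` used to see it.
-/

set_option autoImplicit false

namespace CfsgLib.NonMax

open CfsgLib.Orth CfsgLib.ClMax Module QuadraticMap Cfsg Cfsg.Geo
open CfsgLib.RootMax (Om toQF toQF_coe toQF_nondeg omegaGL_eq_Om)
open scoped MatrixGroups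

section Act

variable {Γ α : Type*} [Group Γ] [MulAction Γ α]

variable (Γ) in
/-- The setwise stabiliser of `X`. -/
def setStab (X : Set α) : Subgroup Γ where
  carrier := {g | ∀ v, v ∈ X ↔ g • v ∈ X}
  mul_mem' {a b} ha hb v := by rw [mul_smul]; exact (hb v).trans (ha _)
  one_mem' v := by rw [one_smul]
  inv_mem' {a} ha v := by
    have := ha (a⁻¹ • v)
    rw [smul_inv_smul] at this
    exact this.symm

theorem mem_setStab_of_finite {X : Set α} (hX : X.Finite) {g : Γ} (h : ∀ v ∈ X, g • v ∈ X) :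
    g ∈ setStab Γ X := by
  intro v
  refine ⟨h v, fun hv => ?_⟩
  have hm : Set.MapsTo (fun x => g • x) X X := h
  have hb := (hX.injOn_iff_bijOn_of_mapsTo hm).1 (MulAction.injective g).injOn
  obtain ⟨w, hw, hwv⟩ := hb.surjOn hv
  have : w = v := MulAction.injective g hwv
  exact this ▸ hw

/-- The setwise stabiliser of a finite set as an intermediate subgroup. -/
theorem btw_of_set {S G : Subgroup Γ} {X : Set α} (hX : X.Finite)
    (h1 : ∀ g ∈ S, g ∈ G → ∀ v ∈ X, g • v ∈ X)
    (h2 : ∃ g ∈ G, g ∉ S ∧ ∀ v ∈ X, g • v ∈ X)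
    (h3 : ∃ g ∈ G, ∃ v ∈ X, g • v ∉ X) : ∃ K, S ⊓ G < K ∧ K < G := by
  refine exists_between_of (M := setStab Γ X ⊓ G)
    (fun g hg => ⟨mem_setStab_of_finite hX (h1 g hg.1 hg.2), hg.2⟩) inf_le_right ?_ ?_
  · obtain ⟨g, hg, hgS, h⟩ := h2
    exact ⟨g, ⟨mem_setStab_of_finite hX h, hg⟩, fun h' => hgS h'.1⟩
  · obtain ⟨g, hg, v, hv, h⟩ := h3
    exact ⟨g, hg, fun h' => h ((h'.1 v).1 hv)⟩

end Act

section Field

variable {F : Type*} [Field F] [Fintype F]

theorem mul_self_eq_one_of_card_le (hq : Fintype.card F ≤ 3) {x : F} (hx : x ≠ 0) : x * x = 1 := by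
  have h1 := FiniteField.pow_card_sub_one_eq_one x hx
  have h2 : 1 < Fintype.card F := Fintype.one_lt_card
  have h3 : Fintype.card F = 2 ∨ Fintype.card F = 3 := by omega
  rcases h3 with h | h <;> rw [h] at h1
  · simp at h1; simp [h1]
  · simpa [pow_two] using h1

theorem eq_zero_or_one_of_card (hq : Fintype.card F = 2) (x : F) : x = 0 ∨ x = 1 := by
  by_cases hx : x = 0
  · exact Or.inl hx
  · have h1 := FiniteField.pow_card_sub_one_eq_one x hx
    rw [hq] at h1
    right; simpa using h1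

theorem two_eq_zero_of_even (hq : ¬ Odd (Fintype.card F)) : (2 : F) = 0 := by
  by_contra h
  exact hq (Nat.odd_iff.2 (card_odd_of_two_ne_zero h))

theorem three_eq_zero_of_card (hq : Fintype.card F = 3) : (3 : F) = 0 := by
  have := FiniteField.cast_card_eq_zero F
  rw [hq] at this
  exact_mod_cast this

end Field

section Orth

variable {F V : Type*} [Field F] [AddCommGroup V] [Module F V] {Q : QuadraticForm F V}

theorem Om_eq_map (Q : QuadraticForm F V) :
    Om Q = (commutator (OG Q)).map (OG Q).subtype := RootMax.Om_eq_map Q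

theorem mem_Om {g : OG Q} (h : g ∈ commutator (OG Q)) : g.1 ∈ Om Q := by
  rw [Om_eq_map]; exact ⟨g, h, rfl⟩

theorem exists_of_mem_Om {g : V ≃ₗ[F] V} (h : g ∈ Om Q) :
    ∃ k : OG Q, k ∈ commutator (OG Q) ∧ k.1 = g := by
  rw [Om_eq_map] at h; exact h

theorem Om_map_Q {g : V ≃ₗ[F] V} (h : g ∈ Om Q) (v : V) : Q (g v) = Q v := by
  obtain ⟨k, -, rfl⟩ := exists_of_mem_Om h
  exact k.2 v

theorem Om_map_polar {g : V ≃ₗ[F] V} (h : g ∈ Om Q) (v w : V) :
    polar Q (g v) (g w) = polar Q v w := by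
  obtain ⟨k, -, rfl⟩ := exists_of_mem_Om h
  exact OG.map_polar k v w

/-- The form has non-degenerate polar form on `W`. -/
def NdOn (Q : QuadraticForm F V) (W : Submodule F V) : Prop :=
  ∀ w ∈ W, (∀ x ∈ W, polar Q x w = 0) → w = 0

theorem NdOn.restrict {W : Submodule F V} (h : NdOn Q W) :
    (polarBilin (Q.comp W.subtype)).Nondegenerate :=
  restrict_nondegenerate (by
    rw [eq_bot_iff]
    intro x hx
    exact (Submodule.mem_bot F).2 (h x hx.1 hx.2))

theorem NdOn.exists_polar_eq {W : Submodule F V} (h : NdOn Q W) {w : V} (hw : w ∈ W) (h0 : w ≠ 0)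
    (c : F) : ∃ x ∈ W, polar Q x w = c := by
  have : ∃ x ∈ W, polar Q x w ≠ 0 := by
    by_contra h'
    push Not at h'
    exact h0 (h w hw h')
  obtain ⟨x, hx, hx'⟩ := this
  exact ⟨(c / polar Q x w) • x, W.smul_mem _ hx, by
    rw [polar_smul_left, smul_eq_mul, div_mul_cancel₀ _ hx']⟩

theorem NdOn.exists_Q_eq [Finite F] {W : Submodule F V} (h : NdOn Q W) (h2 : 2 ≤ finrank F W)
    (c : F) : ∃ x ∈ W, Q x = c := by
  obtain ⟨v, hv⟩ := Orth.exists_Q_eq h.restrict h2 c
  exact ⟨v, v.2, hv⟩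

/-- A subspace of dimension at least two contains a non-zero vector orthogonal to `a`. -/
theorem exists_ne_zero_perp [FiniteDimensional F V] {W : Submodule F V} (h2 : 2 ≤ finrank F W)
    (a : V) : ∃ y ∈ W, y ≠ 0 ∧ polar Q a y = 0 := by
  have h := finrank_le_inf_add_one (Q := Q) W a
  have : W ⊓ LinearMap.ker (polarBilin Q a) ≠ ⊥ := by
    intro h0
    rw [h0, finrank_bot] at h
    omega
  obtain ⟨y, hy, hy0⟩ := (Submodule.ne_bot_iff _).1 this
  exact ⟨y, hy.1, hy0, hy.2⟩

theorem exists_ne_zero_perp_two [FiniteDimensional F V] {W : Submodule F V} (h3 : 3 ≤ finrank F W)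
    (a b : V) : ∃ y ∈ W, y ≠ 0 ∧ polar Q a y = 0 ∧ polar Q b y = 0 := by
  have h := finrank_le_inf_add_one (Q := Q) W a
  obtain ⟨y, hy, hy0, hb⟩ :=
    exists_ne_zero_perp (Q := Q) (W := W ⊓ LinearMap.ker (polarBilin Q a)) (by omega) b
  exact ⟨y, hy.1, hy0, hy.2, hb⟩

/-- A non-zero singular vector in a subspace of dimension at least three. -/
theorem exists_singular_mem [Finite F] [FiniteDimensional F V] (Q : QuadraticForm F V)
    {W : Submodule F V} (h : 3 ≤ finrank F W) : ∃ u ∈ W, u ≠ 0 ∧ Q u = 0 := by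
  obtain ⟨v, hv0, hv⟩ := OrthE.exists_singular (Q.comp W.subtype) h
  exact ⟨v, v.2, fun h => hv0 (Subtype.ext h), hv⟩

/-- A non-zero singular vector orthogonal to a subspace of codimension at least three. -/
theorem exists_singular_perp [Finite F] [FiniteDimensional F V]
    (hQ : (polarBilin Q).Nondegenerate) {W : Submodule F V} (h : finrank F W + 3 ≤ finrank F V) :
    ∃ u, u ≠ 0 ∧ Q u = 0 ∧ ∀ w ∈ W, polar Q u w = 0 := by
  obtain ⟨u, hu, hu0, hu'⟩ := exists_singular_mem Q
    (W := LinearMap.BilinForm.orthogonal (polarBilin Q) W)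
    (by rw [LinearMap.BilinForm.finrank_orthogonal hQ]; omega)
  exact ⟨u, hu0, hu', fun w hw => by rw [polar_comm]; exact hu w hw⟩

variable [FiniteDimensional F V]

theorem eichler_mem_Om (hQ : (polarBilin Q).Nondegenerate) (h5 : 5 ≤ finrank F V) {u w : V}
    (hu : Q u = 0) (hw : polar Q u w = 0) : (eichler Q u w hu hw).1 ∈ Om Q :=
  mem_Om (eichler_mem_commutator hQ (Or.inr (by omega)) hu hw)

/-- `Ω` moves `z` to `z + u` when `u` is singular, orthogonal to `z` and `z` is off the line `u`. -/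
theorem exists_Om_add (hQ : (polarBilin Q).Nondegenerate) (h5 : 5 ≤ finrank F V) {u z : V}
    (hu : Q u = 0) (hz : polar Q u z = 0) (hzu : z ∉ Submodule.span F {u}) :
    ∃ g ∈ Om Q, g z = z + u ∧ ∀ y, polar Q u y = 0 → ∃ c : F, g y = y + c • u := by
  obtain ⟨w, hw, hw'⟩ := exists_perp_polar_eq hQ hzu 1
  have hw0 := hw u (Submodule.mem_span_singleton_self u)
  refine ⟨_, eichler_mem_Om hQ h5 hu hw0, ?_, fun y hy => ⟨_, eichler_apply_of_perp hu hw0 hy⟩⟩
  rw [eichler_apply_of_perp hu hw0 hz, polar_comm, hw', one_smul]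

/-- A hyperbolic basis of a plane of plus type. -/
theorem exists_hyp_pair {W U : Submodule F V} (hW : NdOn Q W) (hdim : finrank F W = 2)
    (hUW : U ≤ W) (hU : ∀ u ∈ U, Q u = 0) (hU2 : 2 * finrank F U = finrank F W) :
    ∃ e ∈ W, ∃ f ∈ W, Q e = 0 ∧ Q f = 0 ∧ polar Q e f = 1 ∧
      ∀ v ∈ W, ∃ x y : F, v = x • e + y • f := by
  have hU0 : U ≠ ⊥ := by
    intro h
    rw [h, finrank_bot] at hU2
    omega
  obtain ⟨e, he, he0⟩ := (Submodule.ne_bot_iff _).1 hU0
  obtain ⟨f', hf', hf⟩ := hW.exists_polar_eq (hUW he) he0 1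
  have hQe := hU e he
  have hee : polar Q e e = 0 := by rw [polar_self', hQe, mul_zero]
  rw [polar_comm] at hf
  have hef : polar Q e (f' - Q f' • e) = 1 := by
    rw [polar_sub_right, polar_smul_right, hf, hee]; simp
  have hfW : f' - Q f' • e ∈ W := W.sub_mem hf' (W.smul_mem _ (hUW he))
  refine ⟨e, hUW he, f' - Q f' • e, hfW, hQe, ?_, hef, ?_⟩
  · rw [Q_sub, Q_smul, hQe, polar_smul_right, polar_comm, hf]; simp
  · set f := f' - Q f' • e
    have hli : LinearIndependent F ![e, f] := by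
      rw [LinearIndependent.pair_iff]
      intro s t hst
      have h1 : polar Q e (s • e + t • f) = 0 := by rw [hst, polar_zero_right]
      rw [polar_add_right, polar_smul_right, polar_smul_right, hee, hef] at h1
      have ht : t = 0 := by simpa using h1
      rw [ht, zero_smul, add_zero] at hst
      exact ⟨(smul_eq_zero.1 hst).resolve_right he0, ht⟩
    have hsp : Submodule.span F {e, f} = W := by
      apply Submodule.eq_of_le_of_finrank_eq
      · rw [Submodule.span_le]
        rintro x (rfl | rfl)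
        exacts [hUW he, hfW]
      · have := finrank_span_eq_card hli
        rw [Matrix.range_cons, Matrix.range_cons, Matrix.range_empty, Set.union_empty,
          Set.singleton_union] at this
        rw [this, hdim]; simp
    intro v hv
    rw [← hsp, Submodule.mem_span_pair] at hv
    obtain ⟨x, y, h⟩ := hv
    exact ⟨x, y, h.symm⟩

omit [FiniteDimensional F V] in
theorem Q_hyp {e f : V} (he : Q e = 0) (hf : Q f = 0) (hef : polar Q e f = 1) (x y : F) :
    Q (x • e + y • f) = x * y := by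
  rw [Q_add, Q_smul, Q_smul, he, hf, polar_smul_left, polar_smul_right, hef]; simp

omit [FiniteDimensional F V] in
theorem polar_hyp {e f : V} (he : Q e = 0) (hf : Q f = 0) (hef : polar Q e f = 1) (x y x' y' : F) :
    polar Q (x • e + y • f) (x' • e + y' • f) = x * y' + x' * y := by
  have hfe : polar Q f e = 1 := by rw [polar_comm, hef]
  simp only [polar_add_left, polar_add_right, polar_smul_left, polar_smul_right, polar_self', he,
    hf, hef, hfe, smul_eq_mul]
  ring

end Orth

section MatGL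

variable {F : Type*} [Field F] {ι : Type} [Fintype ι] [DecidableEq ι]

theorem btw_gl {S G : Subgroup (GL ι F)} {S' G' : Subgroup ((ι → F) ≃ₗ[F] (ι → F))}
    (hS : S = S'.comap (toEquiv (ι := ι) (F := F)).toMonoidHom)
    (hG : G = G'.comap (toEquiv (ι := ι) (F := F)).toMonoidHom)
    (h : ∃ K, S' ⊓ G' < K ∧ K < G') : ∃ K, S ⊓ G < K ∧ K < G := by
  rw [hS, hG, ← Subgroup.comap_inf]
  exact exists_between_comap _ h

omit [Fintype ι] [DecidableEq ι] in
theorem toQF_nd {Q : (ι → F) → F} (hQ : IsNondegenerateQuadraticForm Q) :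
    (polarBilin (toQF hQ)).Nondegenerate := (OrthE.nondeg_iff _).1 (toQF_nondeg hQ)

omit [Fintype ι] [DecidableEq ι] in
theorem ndOn_of {Q : QuadraticForm F (ι → F)} {W : Submodule F (ι → F)}
    (h : IsNondegenerateOn (polar Q) W) : NdOn Q W := by
  intro w hw h'
  by_contra h0
  obtain ⟨x, hx, hx'⟩ := (h w hw h0).1
  exact hx' (h' x hx)

omit [Fintype ι] [DecidableEq ι] in
theorem isNondegenerateQuadraticForm_of (Q : QuadraticForm F (ι → F))
    (hQ : (polarBilin Q).Nondegenerate) : IsNondegenerateQuadraticForm (⇑Q) where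
  smul c v := by rw [Q_smul, pow_two]
  polar_bilinear :=
    ⟨fun x y v => polar_add_left Q x y v, fun c x v => polar_smul_left Q c x v,
      fun v x y => polar_add_right Q v x y, fun c v x => polar_smul_right Q c v x⟩
  nondegenerate v hv := by
    obtain ⟨y, hy⟩ := exists_polar_ne_zero hQ hv
    exact ⟨⟨y, by rw [polar_comm]; exact hy⟩, ⟨y, hy⟩⟩

theorem quadFormOdd_nondeg [Fintype F] (hodd : Odd (Fintype.card F)) (m : ℕ) :
    IsNondegenerateQuadraticForm (quadFormOdd m F) :=
  isNondegenerateQuadraticForm_of (qOdd m F) (qOdd_nondegenerate (two_ne_zero_of_odd_card hodd) m)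

end MatGL

end CfsgLib.NonMax
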