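import Mathlib
import Cfsg.Agent.Lib.NonMax.Basic
import Cfsg.Agent.Lib.Asch.Proj

/-!
Non-maximal stabilisers of orthogonal decompositions in `Ω`: members of dimension two or three over
the field with three elements, planes of plus type over fields with 2, 4 or 5 elements, and
four-dimensional members of plus type over the field with two elements.
-/

set_option autoImplicit false

namespace CfsgLib.NonMax

open CfsgLib.Orth CfsgLib.ClMax Module QuadraticMap Cfsg Cfsg.Geo
open CfsgLib.RootMax (Om toQF toQF_coe toQF_nondeg omegaGL_eq_Om)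
open scoped MatrixGroups

section Abstract

variable {F V : Type*} [Field F] [AddCommGroup V] [Module F V] {t : ℕ}
  {D : Fin t → Submodule F V}

/-- Pairwise orthogonal subspaces, each non-degenerate. -/
structure ODec (B : V → V → F) (D : Fin t → Submodule F V) : Prop where
  nd : ∀ i, ∀ w ∈ D i, (∀ x ∈ D i, B x w = 0) → w = 0
  orth : ∀ i j, i ≠ j → ∀ u ∈ D i, ∀ v ∈ D j, B u v = 0

theorem ODec.eq_of_mem {B : V → V → F} (h : ODec B D) {i j : Fin t} {y : V} (hy : y ≠ 0)
    (hi : y ∈ D i) (hj : y ∈ D j) : i = j := by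
  by_contra hij
  exact hy (h.nd i y hi fun x hx => h.orth i j hij x hx y hj)

theorem ODec.not_mem_decompV {B : V → V → F} (h : ODec B D) {g : V ≃ₗ[F] V} {i : Fin t} {y a : V}
    (hy : y ∈ D i) (hy0 : y ≠ 0) (hgy : g y ∈ D i) (ha : a ∈ D i) (hga : g a ∉ D i) :
    g ∉ decompV D := by
  rintro ⟨σ, hσ⟩
  have h1 : g y ∈ D (σ i) := by rw [← hσ i]; exact ⟨y, hy, rfl⟩
  have h2 : g a ∈ D (σ i) := by rw [← hσ i]; exact ⟨a, ha, rfl⟩
  have h3 : σ i = i := h.eq_of_mem (by simpa using hy0) h1 hgy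
  exact hga (h3 ▸ h2)

theorem decompV_map {g : V ≃ₗ[F] V} (hg : g ∈ decompV D) {v : V} (hv : ∃ i, v ∈ D i) :
    ∃ i, g v ∈ D i := by
  obtain ⟨σ, hσ⟩ := hg
  obtain ⟨i, hi⟩ := hv
  exact ⟨σ i, by rw [← hσ i]; exact ⟨v, hi, rfl⟩⟩

variable {Q : QuadraticForm F V}

theorem ODec.ndOn (h : ODec (polar Q) D) (i : Fin t) : NdOn Q (D i) := h.nd i

variable (Q D) in
/-- The vectors of norm `c` in the members of the decomposition. -/
def Phi (c : F) : Set V := {v | (∃ i, v ∈ D i) ∧ Q v = c}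

theorem phi_map {c : F} {g : V ≃ₗ[F] V} (hg : g ∈ decompV D) (hg' : g ∈ Om Q) {v : V}
    (hv : v ∈ Phi D Q c) : g v ∈ Phi D Q c :=
  ⟨decompV_map hg hv.1, by rw [Om_map_Q hg', hv.2]⟩

theorem ODec.refl_mem (h : ODec (polar Q) D) {i : Fin t} {x : V} (hx : x ∈ D i) {l : Fin t}
    {v : V} (hv : v ∈ D l) : (refl Q x).1 v ∈ D l := by
  by_cases hl : i = l
  · subst hl; exact refl_mem_of_mem hx hv
  · rwa [refl_apply_of_polar_eq_zero (h.orth i l hl x hx v hv)]

variable [FiniteDimensional F V]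

theorem ODec.refl_mem_decompV (h : ODec (polar Q) D) {i : Fin t} {x : V} (hx : x ∈ D i) :
    (refl Q x).1 ∈ decompV D :=
  ⟨1, fun _ => mem_stabV_iff_map.1 (mem_stabV_of_le fun _ hv => h.refl_mem hx hv)⟩

theorem ODec.exists_mover [Finite F] (h : ODec (polar Q) D) (hQ : (polarBilin Q).Nondegenerate)
    (h5 : 5 ≤ finrank F V) {i : Fin t} (h3 : finrank F (D i) + 3 ≤ finrank F V) {a : V}
    (ha : a ∈ D i) (ha0 : a ≠ 0) : ∃ g ∈ Om Q, ∀ l, g a ∉ D l := by
  obtain ⟨u, hu0, hu, huD⟩ := exists_singular_perp hQ h3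
  obtain ⟨w, hw, hwa⟩ := (h.ndOn i).exists_polar_eq ha ha0 1
  refine ⟨_, eichler_mem_Om hQ h5 hu (huD w hw), fun l hl => ?_⟩
  rw [eichler_apply_of_perp hu _ (huD a ha), hwa, one_smul] at hl
  by_cases hli : i = l
  · subst hli
    exact hu0 (h.nd i u (by simpa using (D i).sub_mem hl ha) fun x hx => by
      rw [polar_comm]; exact huD x hx)
  · have := h.orth i l hli w hw _ hl
    rw [polar_add_right, hwa, polar_comm, huD w hw, add_zero] at this
    exact one_ne_zero this

/-- Odd characteristic: the vectors of norm `c` in the members form an orthogonal frame. -/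
theorem btw_frame [Finite F] (h : ODec (polar Q) D) (hQ : (polarBilin Q).Nondegenerate)
    (h5 : 5 ≤ finrank F V) (h2 : (2 : F) ≠ 0) {i j : Fin t} (hij : i ≠ j)
    (hi : 2 ≤ finrank F (D i)) (hj : 2 ≤ finrank F (D j))
    (h3 : finrank F (D i) + 3 ≤ finrank F V) {c : F} (hc : c ≠ 0)
    (hfr : ∀ l, ∀ v ∈ D l, ∀ w ∈ D l, Q v = c → Q w = c → w = v ∨ w = -v ∨ polar Q v w = 0) :
    ∃ K, decompV D ⊓ Om Q < K ∧ K < Om Q := by
  have : Finite V := Module.finite_of_finite F
  obtain ⟨a, ha, hac⟩ := (h.ndOn i).exists_Q_eq hi c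
  obtain ⟨b, hb, hbc⟩ := (h.ndOn j).exists_Q_eq hj c
  obtain ⟨x, hx, hxc⟩ := (h.ndOn i).exists_Q_eq hi (2 * c)
  have ha0 : a ≠ 0 := by rintro rfl; exact hc (by simpa using hac.symm)
  have hb0 : b ≠ 0 := by rintro rfl; exact hc (by simpa using hbc.symm)
  have hab : Q (a - b) = 2 * c := by
    rw [Q_sub, hac, hbc, h.orth i j hij a ha b hb]; ring
  have h2c : 2 * c ≠ 0 := mul_ne_zero h2 hc
  have hra : (refl Q (a - b)).1 a = b := refl_sub_apply (hac.trans hbc.symm) (hab ▸ h2c)
  have hrb : (refl Q (a - b)).1 b = a := refl_sub_apply' (hac.trans hbc.symm) (hab ▸ h2c)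
  refine btw_of_set (X := Phi D Q c) (Set.toFinite _) (fun g hg hg' v hv => phi_map hg hg' hv)
    ?_ ?_
  · refine ⟨_, mem_Om (refl_mul_refl_mem_commutator hQ (x := a - b) (y := x) (hab ▸ h2c)
      (hxc ▸ h2c) ⟨2 * c, by rw [hab, hxc]⟩), fun hg => ?_, fun v hv => ?_⟩
    · have h1 : (refl Q (a - b)).1 ∈ decompV D := by
        have := (decompV D).mul_mem hg (h.refl_mem_decompV hx)
        rwa [← Subgroup.coe_mul, mul_assoc, refl_mul_self, mul_one] at this
      obtain ⟨y, hy, hy0, hay⟩ := exists_ne_zero_perp (Q := Q) hi a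
      refine h.not_mem_decompV hy hy0 ?_ ha ?_ h1
      · rwa [refl_apply_of_polar_eq_zero]
        rw [polar_sub_left, hay, h.orth j i hij.symm b hb y hy, sub_zero]
      · rw [hra]
        exact fun h' => hij (h.eq_of_mem hb0 h' hb)
    · refine ⟨?_, by rw [LinearEquiv.smul_def, OG.map_Q, hv.2]⟩
      obtain ⟨⟨l, hl⟩, hvc⟩ := hv
      rw [LinearEquiv.smul_def, OG.mul_apply]
      have hl' := h.refl_mem hx hl
      have hvc' : Q ((refl Q x).1 v) = c := by rw [OG.map_Q, hvc]
      generalize (refl Q x).1 v = z at hl' hvc'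
      have hfix : polar Q a z = 0 → polar Q b z = 0 → ∃ i, (refl Q (a - b)).1 z ∈ D i := by
        intro h1 h2
        rw [refl_apply_of_polar_eq_zero (by rw [polar_sub_left, h1, h2, sub_zero])]
        exact ⟨l, hl'⟩
      by_cases hli : i = l
      · subst hli
        rcases hfr i a ha z hl' hac hvc' with rfl | rfl | h1
        · exact ⟨j, by rwa [hra]⟩
        · exact ⟨j, by rw [map_neg, hra]; exact (D j).neg_mem hb⟩
        · exact hfix h1 (h.orth j i hij.symm b hb z hl')
      · by_cases hlj : j = l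
        · subst hlj
          rcases hfr j b hb z hl' hbc hvc' with rfl | rfl | h1
          · exact ⟨i, by rwa [hrb]⟩
          · exact ⟨i, by rw [map_neg, hrb]; exact (D i).neg_mem ha⟩
          · exact hfix (h.orth i j hij a ha z hl') h1
        · exact hfix (h.orth i l hli a ha z hl') (h.orth j l hlj b hb z hl')
  · obtain ⟨g, hg, hg'⟩ := h.exists_mover hQ h5 h3 ha ha0
    exact ⟨g, hg, a, ⟨⟨i, ha⟩, hac⟩, fun ⟨⟨l, hl⟩, _⟩ => hg' l hl⟩

variable (Q) in
/-- No vector of norm `c` in `W` is orthogonal to a non-zero singular vector of `W`. -/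
def NoSingPerp (W : Submodule F V) (c : F) : Prop :=
  ∀ v ∈ W, ∀ z ∈ W, Q v = c → Q z = 0 → polar Q v z = 0 → z = 0

omit [FiniteDimensional F V] in
theorem NoSingPerp.frame (hsq : ∀ x : F, x ≠ 0 → x * x = 1) (h2 : (2 : F) ≠ 0)
    {W : Submodule F V} {c : F} (hc : c ≠ 0) (h : NoSingPerp Q W c) :
    ∀ v ∈ W, ∀ w ∈ W, Q v = c → Q w = c → w = v ∨ w = -v ∨ polar Q v w = 0 := by
  intro v hv w hw hvc hwc
  by_cases h0 : polar Q v w = 0
  · exact Or.inr (Or.inr h0)
  have h1 : polar Q v w * polar Q v w = (2 * c) * (2 * c) := by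
    rw [hsq _ h0, hsq _ (mul_ne_zero h2 hc)]
  rcases mul_self_eq_mul_self_iff.1 h1 with h3 | h3
  · left
    refine sub_eq_zero.1 (h v hv (w - v) (W.sub_mem hw hv) hvc ?_ ?_)
    · rw [Q_sub, polar_comm, h3, hvc, hwc]; ring
    · rw [polar_sub_right, h3, polar_self', hvc, sub_self]
  · right; left
    refine eq_neg_of_add_eq_zero_left (h v hv (w + v) (W.add_mem hw hv) hvc ?_ ?_)
    · rw [Q_add, polar_comm, h3, hvc, hwc]; ring
    · rw [polar_add_right, h3, polar_self', hvc, neg_add_cancel]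

theorem noSingPerp_two {W : Submodule F V} (hW : NdOn Q W) (hdim : finrank F W = 2) {c : F}
    (hc : c ≠ 0) : NoSingPerp Q W c := by
  intro v hv z hz hvc hz0 hvz
  by_contra h0
  have hli : LinearIndependent F ![v, z] := by
    rw [LinearIndependent.pair_iff]
    intro s r hsr
    have h1 : Q (s • v) = Q (-(r • z)) := by rw [eq_neg_of_add_eq_zero_left hsr]
    rw [QuadraticMap.map_neg, Q_smul, Q_smul, hz0, hvc, mul_zero] at h1
    have hs : s = 0 := by simpa [hc] using h1
    rw [hs, zero_smul, zero_add] at hsr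
    exact ⟨hs, (smul_eq_zero.1 hsr).resolve_right h0⟩
  have hsp : Submodule.span F {v, z} = W := by
    apply Submodule.eq_of_le_of_finrank_eq
    · rw [Submodule.span_le]
      rintro x (rfl | rfl)
      exacts [hv, hz]
    · have := finrank_span_eq_card hli
      rw [Matrix.range_cons, Matrix.range_cons, Matrix.range_empty, Set.union_empty,
        Set.singleton_union] at this
      rw [this, hdim]; simp
  refine h0 (hW z hz fun x hx => ?_)
  rw [← hsp, Submodule.mem_span_pair] at hx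
  obtain ⟨s, r, rfl⟩ := hx
  rw [polar_add_left, polar_smul_left, polar_smul_left, hvz, polar_self', hz0]; simp

theorem qOdd_one_apply (v : Unit ⊕ (Fin 1 ⊕ Fin 1) → F) :
    qOdd 1 F v = v (.inl ()) ^ 2 + v (.inr (.inl 0)) * v (.inr (.inr 0)) := by
  change quadFormOdd 1 F v = _
  simp [quadFormOdd]

theorem exists_noSingPerp_three [Finite F] (hsq : ∀ x : F, x ≠ 0 → x * x = 1)
    {W : Submodule F V} (hW : NdOn Q W) (hdim : finrank F W = 3) :
    ∃ c, c ≠ 0 ∧ NoSingPerp Q W c := by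
  obtain ⟨h2, e, c, hc, he⟩ := exists_equiv_qOdd hW.restrict (m := 1) hdim
  refine ⟨-c, neg_ne_zero.2 hc, fun v hv z hz hvc hz0 hvz => ?_⟩
  obtain ⟨p, hp⟩ := e.surjective ⟨v, hv⟩
  obtain ⟨r, hr⟩ := e.surjective ⟨z, hz⟩
  have h1 := he p
  have h3 := he r
  have h4 := he (p + r)
  rw [map_add, hp, hr] at h4
  rw [hp] at h1
  rw [hr] at h3
  change Q v = _ at h1
  change Q z = _ at h3
  change Q (v + z) = _ at h4
  rw [Q_add, hvz, hvc, hz0] at h4
  rw [hvc] at h1
  rw [hz0] at h3
  rw [qOdd_one_apply] at h1 h3 h4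
  simp only [Pi.add_apply] at h4
  set x := r (.inl ())
  set y := r (.inr (.inl 0))
  set w := r (.inr (.inr 0))
  set x' := p (.inl ())
  set y' := p (.inr (.inl 0))
  set w' := p (.inr (.inr 0))
  have e1 : x' ^ 2 + y' * w' = -1 := mul_left_cancel₀ hc (by linear_combination -h1)
  have e3 : x ^ 2 + y * w = 0 := mul_left_cancel₀ hc (by linear_combination -h3)
  have e4 : 2 * x * x' + y * w' + y' * w = 0 :=
    mul_left_cancel₀ hc (by linear_combination -h4 + h1 + h3)
  have key : ∀ s u : F, s * s = -(u * u) → u = 0 := by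
    intro s u hsu
    by_contra hu
    rw [hsq u hu] at hsu
    by_cases hs : s = 0
    · rw [hs, mul_zero] at hsu
      exact one_ne_zero (neg_eq_zero.1 hsu.symm)
    · rw [hsq s hs] at hsu
      exact h2 (by linear_combination hsu)
  have hy : y = 0 := key (y * x' - x * y') y (by
    linear_combination (y * y) * e1 + (y' * y') * e3 - (y * y') * e4)
  have hw : w = 0 := key (w * x' - x * w') w (by
    linear_combination (w * w) * e1 + (w' * w') * e3 - (w * w') * e4)
  have hx : x = 0 := by simpa [hy] using e3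
  have hr0 : r = 0 := by
    funext k
    rcases k with ⟨⟨⟩⟩ | k | k
    · exact hx
    · rw [Subsingleton.elim k 0]; exact hy
    · rw [Subsingleton.elim k 0]; exact hw
  rw [hr0, map_zero] at hr
  exact (congrArg Subtype.val hr).symm

omit [FiniteDimensional F V] in
theorem NoSingPerp.of_equiv {W W' : Submodule F V} {c : F} (h : NoSingPerp Q W' c)
    (e : W ≃ₗ[F] W') (he : ∀ w : W, Q (e w : V) = Q w) : NoSingPerp Q W c := by
  intro v hv z hz hvc hz0 hvz
  have h1 := h _ (e ⟨v, hv⟩).2 _ (e ⟨z, hz⟩).2 (by rw [he, hvc]) (by rw [he, hz0]) (by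
    rw [polar, ← Submodule.coe_add, ← map_add, he, he, he]; exact hvz)
  have h2 : e ⟨z, hz⟩ = 0 := Subtype.ext h1
  exact congrArg Subtype.val (e.map_eq_zero_iff.1 h2)

variable (Q) in
/-- `W` has a hyperbolic basis of two vectors. -/
def HypPlane (W : Submodule F V) : Prop :=
  ∃ e ∈ W, ∃ f ∈ W, Q e = 0 ∧ Q f = 0 ∧ polar Q e f = 1 ∧ ∀ v ∈ W, ∃ x y : F, v = x • e + y • f

omit [FiniteDimensional F V] in
theorem HypPlane.frame (h4 : ∀ x : F, x ≠ 0 → x ^ 4 = 1) {W : Submodule F V} (h : HypPlane Q W) :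
    ∀ v ∈ W, ∀ w ∈ W, Q v = 1 → Q w = 1 → w = v ∨ w = -v ∨ polar Q v w = 0 := by
  obtain ⟨e, -, f, -, he, hf, hef, hsp⟩ := h
  intro v hv w hw hv1 hw1
  obtain ⟨x, y, rfl⟩ := hsp v hv
  obtain ⟨x', y', rfl⟩ := hsp w hw
  rw [Q_hyp he hf hef] at hv1 hw1
  rw [polar_hyp he hf hef]
  have hx : x ≠ 0 := left_ne_zero_of_mul_eq_one hv1
  have hx' : x' ≠ 0 := left_ne_zero_of_mul_eq_one hw1
  have h1 : (x' - x) * (x' + x) * (x' ^ 2 + x ^ 2) = 0 := by
    linear_combination h4 x' hx' - h4 x hx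
  rcases mul_eq_zero.1 h1 with h1 | h1
  · rcases mul_eq_zero.1 h1 with h1 | h1
    · left
      have e1 : x' = x := sub_eq_zero.1 h1
      have e2 : y' = y := mul_left_cancel₀ hx (by rw [hv1, ← e1, hw1])
      rw [e1, e2]
    · right; left
      have e1 : x' = -x := eq_neg_of_add_eq_zero_left h1
      have e2 : y' = -y := mul_left_cancel₀ hx (by rw [e1] at hw1; linear_combination hv1 - hw1)
      rw [e1, e2]; module
  · right; right
    apply mul_left_cancel₀ (mul_ne_zero hx hx')
    linear_combination (x * x) * hw1 + (x' * x') * hv1 + h1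

/-- Characteristic two, planes of plus type: the vectors of norm one span a lattice over a
smaller ring. -/
theorem btw_lattice [Finite F] (h : ODec (polar Q) D) (hQ : (polarBilin Q).Nondegenerate)
    (h5 : 5 ≤ finrank F V) (h2 : (2 : F) = 0) {i j l : Fin t} (hij : i ≠ j) (hil : i ≠ l)
    (hjl : j ≠ l) (hp : ∀ i, HypPlane Q (D i)) {S : Set F} (h0 : (0 : F) ∈ S)
    (hadd : ∀ x ∈ S, ∀ y ∈ S, x + y ∈ S) (hmul : ∀ x ∈ S, ∀ y ∈ S, x * y ∈ S) {μ : F}
    (hμ : μ ∉ S) (hS : ∀ x y x' y' : F, x * y = 1 → x' * y' = 1 → x * y' + x' * y ∈ S) :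
    ∃ K, decompV D ⊓ Om Q < K ∧ K < Om Q := by
  have : Finite V := Module.finite_of_finite F
  have hneg : ∀ x : F, -x = x := fun x => by linear_combination -x * h2
  have hΦ : ∀ a ∈ Phi D Q 1, ∀ b ∈ Phi D Q 1, polar Q a b ∈ S := by
    rintro a ⟨⟨r, hr⟩, ha⟩ b ⟨⟨s, hs⟩, hb⟩
    by_cases hrs : r = s
    · subst hrs
      obtain ⟨e, -, f, -, he, hf, hef, hsp⟩ := hp r
      obtain ⟨x, y, rfl⟩ := hsp a hr
      obtain ⟨x', y', rfl⟩ := hsp b hs
      rw [Q_hyp he hf hef] at ha hb
      rw [polar_hyp he hf hef]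
      exact hS _ _ _ _ ha hb
    · rw [h.orth r s hrs a hr b hs]; exact h0
  choose e he f hf hQe hQf hef _ using hp
  have hee : ∀ r, polar Q (e r) (e r) = 0 := fun r => by rw [polar_self', hQe, mul_zero]
  obtain ⟨a, hdef⟩ : ∃ a : Fin t → V, ∀ r, a r = e r + f r := ⟨_, fun _ => rfl⟩
  have hD : ∀ r, a r ∈ D r := fun r => hdef r ▸ (D r).add_mem (he r) (hf r)
  have hQa : ∀ r, Q (a r) = 1 := fun r => by rw [hdef, Q_add, hQe, hQf, hef]; simp
  have ha : ∀ r, a r ∈ Phi D Q 1 := fun r => ⟨⟨r, hD r⟩, hQa r⟩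
  have hea : ∀ r, polar Q (e r) (a r) = 1 := fun r => by
    rw [hdef, polar_add_right, hee, hef, zero_add]
  have ha0 : ∀ r, a r ≠ 0 := fun r h' => by simpa [h'] using hQa r
  let X : Set V := {v | ∀ b ∈ Phi D Q 1, polar Q b v ∈ S}
  have hrefl : ∀ y, Q y = 1 → y ∈ X → (∀ v ∈ X, polar Q y v ∈ S) → ∀ v ∈ X,
      (refl Q y).1 v ∈ X := by
    intro y hy hyX hyX' v hv b hb
    rw [refl_apply, hy, inv_one, one_mul, polar_sub_right, polar_smul_right, smul_eq_mul,
      sub_eq_add_neg, hneg]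
    exact hadd _ (hv b hb) _ (hmul _ (hyX' v hv) _ (hyX b hb))
  refine btw_of_set (X := X) (Set.toFinite _) (fun g hg hg' v hv b hb => ?_) ?_ ?_
  · have := hv _ (phi_map ((decompV D).inv_mem hg) ((Om Q).inv_mem hg') hb)
    rwa [← Om_map_polar hg', apply_inv_apply] at this
  · obtain ⟨y, hy⟩ : ∃ y, y = a i + a j + a l := ⟨_, rfl⟩
    have hQy : Q y = 1 := by
      rw [hy, Q_add, Q_add, hQa, hQa, hQa, polar_add_left, h.orth i j hij _ (hD i) _ (hD j),
        h.orth i l hil _ (hD i) _ (hD l), h.orth j l hjl _ (hD j) _ (hD l)]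
      linear_combination h2
    refine ⟨_, mem_Om (refl_mul_refl_mem_commutator hQ (x := y) (y := a i)
      (by rw [hQy]; exact one_ne_zero) (by rw [hQa]; exact one_ne_zero)
      ⟨1, by rw [hQy, hQa]⟩), fun hg => ?_, fun v hv => ?_⟩
    · have h1 : (refl Q y).1 ∈ decompV D := by
        have := (decompV D).mul_mem hg (h.refl_mem_decompV (hD i))
        rwa [← Subgroup.coe_mul, mul_assoc, refl_mul_self, mul_one] at this
      have hyD : ∀ z ∈ D i, polar Q y z = polar Q (a i) z := fun z hz => by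
        rw [hy, polar_add_left, polar_add_left,
          h.orth j i hij.symm _ (hD j) _ hz, h.orth l i hil.symm _ (hD l) _ hz, add_zero, add_zero]
      refine h.not_mem_decompV (hD i) (ha0 i) ?_ (he i) (fun h' => ?_) h1
      · rw [refl_apply_of_polar_eq_zero (by rw [hyD _ (hD i), polar_self', h2, zero_mul])]
        exact hD i
      · have h3 := h.orth j i hij.symm _ (he j) _ h'
        rw [refl_apply, hQy, hyD _ (he i), polar_comm Q (a i), hea, inv_one, one_mul,
          one_smul, polar_sub_right, h.orth j i hij.symm _ (he j) _ (he i), hy, polar_add_right,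
          polar_add_right, hea, h.orth j i hij.symm _ (he j) _ (hD i),
          h.orth j l hjl _ (he j) _ (hD l)] at h3
        simp at h3
    · rw [LinearEquiv.smul_def, OG.mul_apply]
      refine hrefl y hQy (fun b hb => ?_) (fun z hz => ?_) _
        (hrefl _ (hQa i) (fun b hb => hΦ b hb _ (ha i)) (fun z hz => hz _ (ha i)) v hv)
      · rw [hy, polar_add_right, polar_add_right]
        exact hadd _ (hadd _ (hΦ b hb _ (ha i)) _ (hΦ b hb _ (ha j))) _ (hΦ b hb _ (ha l))
      · rw [hy, polar_add_left, polar_add_left]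
        exact hadd _ (hadd _ (hz _ (ha i)) _ (hz _ (ha j))) _ (hz _ (ha l))
  · obtain ⟨w, hw, hwa⟩ := (h.ndOn i).exists_polar_eq (hD i) (ha0 i) μ
    have huw := h.orth j i hij.symm _ (he j) _ hw
    refine ⟨_, eichler_mem_Om hQ h5 (hQe j) huw, a i, fun b hb => hΦ b hb _ (ha i),
      fun h' => hμ ?_⟩
    have h1 := h' _ (ha j)
    rwa [LinearEquiv.smul_def,
      eichler_apply_of_perp (hQe j) huw (h.orth j i hij.symm _ (he j) _ (hD i)), hwa,
      polar_add_right, h.orth j i hij.symm _ (hD j) _ (hD i), polar_smul_right,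
      polar_comm Q (a j), hea, zero_add, smul_eq_mul, mul_one] at h1

variable (Q) in
/-- The shape of the non-singular vectors of the four-dimensional space of plus type over the field
with two elements. -/
def Triple (W : Submodule F V) : Prop :=
  ∃ a ∈ W, ∃ b ∈ W, Q a = 1 ∧ Q b = 1 ∧ polar Q a b = 1 ∧ ∀ v ∈ W, Q v = 1 →
    v = a ∨ v = b ∨ v = a + b ∨ (polar Q a v = 0 ∧ polar Q b v = 0)

theorem qPlus_two_apply (v : Fin 2 ⊕ Fin 2 → F) :
    qPlus 2 F v = v (.inl 0) * v (.inr 0) + v (.inl 1) * v (.inr 1) := by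
  rw [qPlus_apply, Fin.sum_univ_two]

theorem triple_of_plus (h01 : ∀ x : F, x = 0 ∨ x = 1) {W U : Submodule F V} (hW : NdOn Q W)
    (hdim : finrank F W = 4) (hUW : U ≤ W) (hU : ∀ u ∈ U, Q u = 0)
    (hU2 : 2 * finrank F U = finrank F W) : Triple Q W := by
  have h2 : (1 : F) + 1 = 0 := by
    rcases h01 (1 + 1) with h | h
    · exact h
    · exact absurd (by linear_combination h : (1 : F) = 0) one_ne_zero
  have hL : IsLag (Q.comp W.subtype) (U.comap W.subtype) :=
    ⟨fun u hu => hU _ hu, by rw [(Submodule.comapSubtypeEquivOfLe hUW).finrank_eq, hU2]⟩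
  obtain ⟨e, he, -⟩ := exists_equiv_qPlus hW.restrict hL (m := 2) hdim
  have he' : ∀ v, Q (e v : V) = v (.inl 0) * v (.inr 0) + v (.inl 1) * v (.inr 1) :=
    fun v => by rw [← qPlus_two_apply, ← he]; rfl
  have hp : ∀ v w, polar Q (e v : V) (e w : V) = v (.inl 0) * w (.inr 0) + w (.inl 0) * v (.inr 0)
      + v (.inl 1) * w (.inr 1) + w (.inl 1) * v (.inr 1) := fun v w => by
    rw [polar, ← Submodule.coe_add, ← map_add, he', he', he']
    simp only [Pi.add_apply]
    ring
  let a : Fin 2 ⊕ Fin 2 → F := Sum.elim ![1, 0] ![1, 0]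
  let b : Fin 2 ⊕ Fin 2 → F := Sum.elim ![1, 1] ![0, 1]
  refine ⟨e a, (e a).2, e b, (e b).2, by simp [he', a], by simp [he', b], by simp [hp, a, b],
    fun v hv hv1 => ?_⟩
  obtain ⟨p, hp'⟩ := e.surjective ⟨v, hv⟩
  obtain rfl : v = (e p : V) := by rw [hp']
  rw [he'] at hv1
  rw [hp, hp, ← Submodule.coe_add, ← map_add]
  have hext : ∀ r : Fin 2 ⊕ Fin 2 → F, p (.inl 0) = r (.inl 0) → p (.inr 0) = r (.inr 0) →
      p (.inl 1) = r (.inl 1) → p (.inr 1) = r (.inr 1) → (e p : V) = e r := by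
    intro r h1 h2 h3 h4
    congr 2
    funext k
    rcases k with k | k <;> fin_cases k <;> assumption
  rcases h01 (p (.inl 0)) with h1 | h1 <;> rcases h01 (p (.inr 0)) with h3 | h3 <;>
    rcases h01 (p (.inl 1)) with h4 | h4 <;> rcases h01 (p (.inr 1)) with h5 | h5 <;>
    rw [h1, h3, h4, h5] at hv1 <;>
    first
    | (exfalso; simp [h2] at hv1; done)
    | (left; apply hext <;> simp [a, *]; done)
    | (right; left; apply hext <;> simp [b, *]; done)
    | (right; right; left; apply hext <;> simp [a, b, *]; done)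
    | (right; right; right; simp [a, b, *])

theorem btw_four [Finite F] (h : ODec (polar Q) D) (hQ : (polarBilin Q).Nondegenerate)
    (h5 : 5 ≤ finrank F V) (h2 : (2 : F) = 0) {i j : Fin t} (hij : i ≠ j)
    (hi : 3 ≤ finrank F (D i)) (h3 : finrank F (D i) + 3 ≤ finrank F V)
    (hti : Triple Q (D i)) (htj : Triple Q (D j)) : ∃ K, decompV D ⊓ Om Q < K ∧ K < Om Q := by
  have : Finite V := Module.finite_of_finite F
  obtain ⟨a, ha, b, hb, hQa, hQb, hab, hv⟩ := hti
  obtain ⟨a', ha', b', hb', hQa', hQb', hab', hv'⟩ := htj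
  have ha0 : a ≠ 0 := by rintro rfl; simp at hQa
  have ha0' : a' ≠ 0 := by rintro rfl; simp at hQa'
  have o := h.orth i j hij
  have o' := h.orth j i hij.symm
  have hself : ∀ z, polar Q z z = 0 := fun z => by rw [polar_self', h2, zero_mul]
  have hV : ∀ z : V, z + z = 0 := fun z => by rw [← two_smul F, h2, zero_smul]
  have hu : Q (a + a') = 0 := by
    rw [Q_add, hQa, hQa', o a ha a' ha']; linear_combination h2
  have hw : Q (b + b') = 0 := by
    rw [Q_add, hQb, hQb', o b hb b' hb']; linear_combination h2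
  have huw : polar Q (a + a') (b + b') = 0 := by
    rw [polar_add_left, polar_add_right, polar_add_right, hab, hab', o a ha b' hb', o' a' ha' b hb]
    linear_combination h2
  have hE : ∀ z, (eichler Q _ _ hu huw).1 z = z + (polar Q b z + polar Q b' z) • (a + a')
      - (polar Q a z + polar Q a' z) • (b + b') := fun z => by
    rw [eichler_apply, hw, zero_mul, zero_smul, sub_zero, polar_add_left, polar_add_left]
  have e1 : (eichler Q _ _ hu huw).1 a = a' := by
    rw [hE, hself, polar_comm Q b, hab, o' b' hb' a ha, o' a' ha' a ha]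
    simp [← add_assoc, hV]
  have e2 : (eichler Q _ _ hu huw).1 b = b' := by
    rw [hE, hself, hab, o' b' hb' b hb, o' a' ha' b hb]
    simp [neg_eq_iff_add_eq_zero, hV]
  have e3 : (eichler Q _ _ hu huw).1 a' = a := by
    rw [hE, hself, polar_comm Q b', hab', o b hb a' ha', o a ha a' ha']
    simp [add_comm a a', ← add_assoc, hV]
  have e4 : (eichler Q _ _ hu huw).1 b' = b := by
    rw [hE, hself, hab', o b hb b' hb', o a ha b' hb']
    simp [neg_eq_iff_add_eq_zero, hV]
  have e5 : ∀ z, polar Q a z = 0 → polar Q b z = 0 → polar Q a' z = 0 → polar Q b' z = 0 →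
      (eichler Q _ _ hu huw).1 z = z := fun z h1 h2 h3 h4 => by
    rw [hE, h1, h2, h3, h4]; simp
  refine btw_of_set (X := Phi D Q 1) (Set.toFinite _) (fun g hg hg' v hv => phi_map hg hg' hv)
    ⟨_, eichler_mem_Om hQ h5 hu huw, ?_, fun v hv1 => ?_⟩ ?_
  · obtain ⟨y, hy, hy0, hay, hby⟩ := exists_ne_zero_perp_two (Q := Q) hi a b
    refine h.not_mem_decompV hy hy0 ?_ ha ?_
    · rwa [e5 y hay hby (o' _ ha' _ hy) (o' _ hb' _ hy)]
    · rw [e1]; exact fun h' => hij (h.eq_of_mem ha0' h' ha')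
  · refine ⟨?_, by rw [LinearEquiv.smul_def, OG.map_Q, hv1.2]⟩
    obtain ⟨⟨l, hl⟩, hv1⟩ := hv1
    rw [LinearEquiv.smul_def]
    by_cases hli : i = l
    · subst hli
      rcases hv v hl hv1 with rfl | rfl | rfl | ⟨h1, h2⟩
      · exact ⟨j, by rwa [e1]⟩
      · exact ⟨j, by rwa [e2]⟩
      · exact ⟨j, by rw [map_add, e1, e2]; exact (D j).add_mem ha' hb'⟩
      · exact ⟨i, by rwa [e5 v h1 h2 (o' _ ha' _ hl) (o' _ hb' _ hl)]⟩
    · by_cases hlj : j = l
      · subst hlj
        rcases hv' v hl hv1 with rfl | rfl | rfl | ⟨h1, h2⟩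
        · exact ⟨i, by rwa [e3]⟩
        · exact ⟨i, by rwa [e4]⟩
        · exact ⟨i, by rw [map_add, e3, e4]; exact (D i).add_mem ha hb⟩
        · exact ⟨j, by rwa [e5 v (o _ ha _ hl) (o _ hb _ hl) h1 h2]⟩
      · exact ⟨l, by rwa [e5 v (h.orth i l hli _ ha _ hl) (h.orth i l hli _ hb _ hl)
          (h.orth j l hlj _ ha' _ hl) (h.orth j l hlj _ hb' _ hl)]⟩
  · obtain ⟨g, hg, hg'⟩ := h.exists_mover hQ h5 h3 ha ha0
    exact ⟨g, hg, a, ⟨⟨i, ha⟩, hQa⟩, fun ⟨⟨l, hl⟩, _⟩ => hg' l hl⟩

end Abstract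

section MatGL

variable {F : Type*} [Field F] {ι : Type} [Fintype ι] [DecidableEq ι]

omit [Fintype ι] [DecidableEq ι] in
theorem odec_of {f : (ι → F) → (ι → F) → F} {t k : ℕ} {D : Fin t → Submodule F (ι → F)}
    (h : IsNondegenerateMDecomposition f k D) : ODec f D where
  nd i w hw h' := by
    by_contra h0
    obtain ⟨x, hx, hx'⟩ := (h.nondegenerate i w hw h0).1
    exact hx' (h' x hx)
  orth := h.orthogonal

/-- The non-maximal stabilisers of orthogonal decompositions. -/
theorem omega_dec_not_maximal [Fintype F] {Q : (ι → F) → F} (hQ : IsNondegenerateQuadraticForm Q)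
    (h7 : 7 ≤ Fintype.card ι) {t k : ℕ} {D : Fin t → Submodule F (ι → F)}
    (hD : IsOrthogonalMDecomposition Q k D)
    (hcase : (k = 2 ∧ (Fintype.card F = 3 ∨ ((∀ i, IsPlusTypeOn Q (D i)) ∧
        (Fintype.card F = 2 ∨ Fintype.card F = 4 ∨ Fintype.card F = 5)))) ∨
      (k = 3 ∧ Fintype.card F = 3) ∨
      (k = 4 ∧ Fintype.card F = 2 ∧ ∀ i, IsPlusTypeOn Q (D i))) :
    ∃ K, decompositionStabilizer D ⊓ omegaGL Q < K ∧ K < omegaGL Q := by
  refine btw_gl (decompositionStabilizer_eq D) (omegaGL_eq_Om (toQF hQ)) ?_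
  have h : ODec (polar (toQF hQ)) D := odec_of hD.decomp
  have hnd := toQF_nd hQ
  have hr : finrank F (ι → F) = Fintype.card ι := by simp
  have hk := hD.decomp.decomp.finrank_eq
  have ht := hD.decomp.decomp.two_le
  have htk := Asch.card_eq_of_decomp hD.decomp.decomp
  have hij : (⟨0, by omega⟩ : Fin t) ≠ ⟨1, by omega⟩ := by simp
  have hodd : Fintype.card F = 3 ∨ Fintype.card F = 5 → (2 : F) ≠ 0 := fun h' =>
    two_ne_zero_of_odd_card (by rcases h' with h' | h' <;> rw [h'] <;> decide)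
  have hev : Fintype.card F = 2 ∨ Fintype.card F = 4 → (2 : F) = 0 := fun h' =>
    two_eq_zero_of_even (by rcases h' with h' | h' <;> rw [h'] <;> decide)
  have hsq : Fintype.card F = 3 → ∀ x : F, x ≠ 0 → x * x = 1 := fun h' _ hx =>
    mul_self_eq_one_of_card_le h'.le hx
  rcases hcase with ⟨rfl, h3 | ⟨hp, hq⟩⟩ | ⟨rfl, h3⟩ | ⟨rfl, h2, hp⟩
  · exact btw_frame h hnd (by omega) (hodd (Or.inl h3)) hij (hk _).ge (hk _).ge
      (by rw [hk]; omega) one_ne_zero fun l =>
      (noSingPerp_two (h.ndOn l) (hk l) one_ne_zero).frame (hsq h3) (hodd (Or.inl h3)) one_ne_zero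
  · have hp' : ∀ i, HypPlane (toQF hQ) (D i) := fun i => by
      obtain ⟨U, h1, h2, h3⟩ := hp i
      exact exists_hyp_pair (h.ndOn i) (hk i) h1 h2 h3
    have hil : (⟨0, by omega⟩ : Fin t) ≠ ⟨2, by omega⟩ := by simp
    have hjl : (⟨1, by omega⟩ : Fin t) ≠ ⟨2, by omega⟩ := by simp
    rcases hq with hq | hq | hq
    · have h2 := hev (Or.inl hq)
      refine btw_lattice h hnd (by omega) h2 hij hil hjl hp' (S := {0}) (μ := 1) rfl
        (by simp) (by simp) (by simp) fun x y x' y' h1 h3 => ?_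
      have e : ∀ {a b : F}, a * b = 1 → a = 1 ∧ b = 1 := fun {a b} hab =>
        ⟨(eq_zero_or_one_of_card hq a).resolve_left (left_ne_zero_of_mul_eq_one hab),
          (eq_zero_or_one_of_card hq b).resolve_left (right_ne_zero_of_mul_eq_one hab)⟩
      rw [(e h1).1, (e h1).2, (e h3).1, (e h3).2, Set.mem_singleton_iff]
      linear_combination h2
    · have h2 := hev (Or.inr hq)
      obtain ⟨μ, hμ0, hμ1⟩ : ∃ μ : F, μ ≠ 0 ∧ μ ≠ 1 := by
        classical
        by_contra hc
        push Not at hc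
        have : (Finset.univ : Finset F) ⊆ {0, 1} := fun x _ => by
          by_cases hx : x = 0 <;> simp [hx, hc]
        have h4 := (Finset.card_le_card this).trans (Finset.card_le_two)
        rw [Finset.card_univ] at h4
        omega
      refine btw_lattice h hnd (by omega) h2 hij hil hjl hp' (S := {s | s * s = s}) (μ := μ)
        (by simp) (fun x hx y hy => ?_) (fun x hx y hy => ?_)
        (fun h' => hμ1 (mul_left_cancel₀ hμ0 (by rw [mul_one]; exact h')))
        fun x y x' y' h1 h3 => ?_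
      · change (x + y) * (x + y) = x + y
        change x * x = x at hx
        change y * y = y at hy
        linear_combination hx + hy + x * y * h2
      · change (x * y) * (x * y) = x * y
        change x * x = x at hx
        change y * y = y at hy
        linear_combination y * y * hx + x * hy
      · have c3 : ∀ z : F, z ≠ 0 → z ^ 3 = 1 := fun z hz => by
          have := FiniteField.pow_card_sub_one_eq_one z hz
          rwa [hq] at this
        have hr := c3 (x * y') (mul_ne_zero (left_ne_zero_of_mul_eq_one h1)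
          (right_ne_zero_of_mul_eq_one h3))
        have hs := c3 (x' * y) (mul_ne_zero (left_ne_zero_of_mul_eq_one h3)
          (right_ne_zero_of_mul_eq_one h1))
        have hrs : (x * y') * (x' * y) = 1 := by linear_combination (x' * y') * h1 + h3
        change (x * y' + x' * y) * (x * y' + x' * y) = x * y' + x' * y
        generalize x * y' = r at *
        generalize x' * y = s at *
        linear_combination s * hr + r * hs - (r * r + s * s) * hrs + (r * s) * h2
    · refine btw_frame h hnd (by omega) (hodd (Or.inr hq)) hij (hk _).ge (hk _).ge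
        (by rw [hk]; omega) one_ne_zero fun l => (hp' l).frame fun x hx => ?_
      have := FiniteField.pow_card_sub_one_eq_one x hx
      rwa [hq] at this
  · obtain ⟨c, hc, hc'⟩ := exists_noSingPerp_three (hsq h3) (h.ndOn ⟨0, by omega⟩) (hk _)
    refine btw_frame h hnd (by omega) (hodd (Or.inl h3)) hij (by rw [hk]; omega)
      (by rw [hk]; omega) (by rw [hk]; omega) hc fun l => ?_
    obtain ⟨e, he⟩ := hD.isometric l ⟨0, by omega⟩
    exact (hc'.of_equiv e he).frame (hsq h3) (hodd (Or.inl h3)) hc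
  · have hp' : ∀ i, Triple (toQF hQ) (D i) := fun i => by
      obtain ⟨U, h1, h3, h4⟩ := hp i
      exact triple_of_plus (eq_zero_or_one_of_card h2) (h.ndOn i) (hk i) h1 h3 h4
    exact btw_four h hnd (by omega) (hev (Or.inl h2)) hij (by rw [hk]; omega)
      (by rw [hk]; omega) (hp' _) (hp' _)

end MatGL

end CfsgLib.NonMax
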