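import Mathlib
import Cfsg.Agent.Lib.NonMax.Dec

/-!
Non-maximal stabilisers of tensor decompositions in `Ω`: `O₃(3) ⊗ O_m(3)` and `Sp₂(2) ⊗ Sp_m(2)`.
-/

set_option autoImplicit false

namespace CfsgLib.NonMax

open CfsgLib.Orth CfsgLib.ClMax Module QuadraticMap Cfsg Cfsg.Geo
open CfsgLib.RootMax (Om toQF toQF_coe toQF_nondeg omegaGL_eq_Om)
open scoped MatrixGroups

section Abstract

variable {F V V₁ V₂ : Type*} [Field F] [AddCommGroup V] [Module F V] [AddCommGroup V₁]
  [Module F V₁] [AddCommGroup V₂] [Module F V₂]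

/-- The elements of `S` act on pure tensors factor by factor. -/
def ActsPure (τ : V₁ →ₗ[F] V₂ →ₗ[F] V) (S : Subgroup (V ≃ₗ[F] V)) : Prop :=
  ∀ g ∈ S, ∃ (a : V₁ ≃ₗ[F] V₁) (b : V₂ ≃ₗ[F] V₂), ∀ x y, g (τ x y) = τ (a x) (b y)

/-- A two-by-two minor that vanishes for pure tensors. -/
theorem minor_eq_zero {τ : V₁ →ₗ[F] V₂ →ₗ[F] V} {B : V → V → F} {B₁ : V₁ → V₁ → F}
    {B₂ : V₂ → V₂ → F} {c : F} (h : ∀ x y x' y', B (τ x y) (τ x' y') = c * B₁ x x' * B₂ y y')
    {z : V} (hz : ∃ p r, z = τ p r) (s s' : V₁) (w w' : V₂) (h0 : B z (τ s' w) = 0) :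
    B z (τ s w) * B z (τ s' w') = 0 := by
  obtain ⟨p, r, rfl⟩ := hz
  rw [h] at h0
  rw [h, h]
  linear_combination (c * B₁ p s * B₂ r w') * h0

/-- The first factor of an isometry is a similarity. -/
theorem exists_multiplier {τ : V₁ →ₗ[F] V₂ →ₗ[F] V} {B : V → V → F} {B₁ : V₁ → V₁ → F}
    {B₂ : V₂ → V₂ → F} {c : F} (hc : c ≠ 0)
    (h : ∀ x y x' y', B (τ x y) (τ x' y') = c * B₁ x x' * B₂ y y') (h1 : ∃ x x', B₁ x x' ≠ 0)
    (h2 : ∃ y y', B₂ y y' ≠ 0) {g : V → V} (hg : ∀ u v, B (g u) (g v) = B u v) {a : V₁ → V₁}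
    {b : V₂ → V₂} (hab : ∀ x y, g (τ x y) = τ (a x) (b y)) :
    ∃ l : F, l ≠ 0 ∧ ∀ x x', B₁ (a x) (a x') = l * B₁ x x' := by
  obtain ⟨y, y', hy⟩ := h2
  have key : ∀ x x', B₁ (a x) (a x') * B₂ (b y) (b y') = B₁ x x' * B₂ y y' := fun x x' => by
    have := hg (τ x y) (τ x' y')
    rw [hab, hab, h, h, mul_assoc, mul_assoc] at this
    exact mul_left_cancel₀ hc this
  have hb : B₂ (b y) (b y') ≠ 0 := by
    obtain ⟨x, x', hx⟩ := h1
    intro h0
    have := key x x'
    rw [h0, mul_zero] at this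
    exact mul_ne_zero hx hy this.symm
  refine ⟨B₂ y y' / B₂ (b y) (b y'), div_ne_zero hy hb, fun x x' => ?_⟩
  rw [div_mul_eq_mul_div, eq_div_iff hb, key, mul_comm]

variable [FiniteDimensional F V] [FiniteDimensional F V₁] [FiniteDimensional F V₂]
  {Q : QuadraticForm F V}

omit [FiniteDimensional F V] in
theorem ndOn_top (hQ : (polarBilin Q).Nondegenerate) : NdOn Q ⊤ := fun w _ h =>
  eq_zero_of_polar hQ fun y => by rw [polar_comm]; exact h y trivial

/-- A singular vector `y`, with `v ⊥ y` and test vectors. -/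
theorem exists_test_vectors [Finite F] (hQ : (polarBilin Q).Nondegenerate) (h3 : 3 ≤ finrank F V) :
    ∃ y v w r, Q y = 0 ∧ polar Q y v = 0 ∧ polar Q y w = 0 ∧ polar Q v w = 1 ∧ polar Q v r = 0 ∧
      polar Q y r = 1 := by
  obtain ⟨y, hy0, hy⟩ := OrthE.exists_singular Q h3
  obtain ⟨v, hv, hvy⟩ : ∃ v ∈ LinearMap.ker (polarBilin Q y), v ∉ Submodule.span F {y} := by
    by_contra hc
    push Not at hc
    have h1 := Submodule.finrank_mono (show LinearMap.ker (polarBilin Q y) ≤ _ from hc)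
    have h2 := finrank_le_inf_add_one (Q := Q) ⊤ y
    rw [finrank_span_singleton hy0] at h1
    rw [top_inf_eq, finrank_top] at h2
    omega
  have hyv : y ∉ Submodule.span F {v} := by
    intro h
    obtain ⟨c, hc⟩ := Submodule.mem_span_singleton.1 h
    have hc0 : c ≠ 0 := by rintro rfl; exact hy0 (by rw [← hc, zero_smul])
    exact hvy (Submodule.mem_span_singleton.2 ⟨c⁻¹, by
      rw [← hc, smul_smul, inv_mul_cancel₀ hc0, one_smul]⟩)
  obtain ⟨w, hw, hw'⟩ := exists_perp_polar_eq hQ hvy 1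
  obtain ⟨r, hr, hr'⟩ := exists_perp_polar_eq hQ hyv 1
  exact ⟨y, v, w, r, hy, hv, hw y (Submodule.mem_span_singleton_self y), hw',
    hr v (Submodule.mem_span_singleton_self v), hr'⟩

theorem btw_tensor_three [Finite F] (hsq : ∀ x : F, x ≠ 0 → x * x = 1) (h2 : (2 : F) ≠ 0)
    (hQ : (polarBilin Q).Nondegenerate) (h5 : 5 ≤ finrank F V) {Q₁ : QuadraticForm F V₁}
    (hQ₁ : (polarBilin Q₁).Nondegenerate) (hd₁ : finrank F V₁ = 3) {Q₂ : QuadraticForm F V₂}
    (hQ₂ : (polarBilin Q₂).Nondegenerate) (hd₂ : 3 ≤ finrank F V₂) {τ : V₁ →ₗ[F] V₂ →ₗ[F] V}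
    {c₀ : F} (hc₀ : c₀ ≠ 0)
    (hτ : ∀ x y x' y', polar Q (τ x y) (τ x' y') = c₀ * polar Q₁ x x' * polar Q₂ y y')
    {S : Subgroup (V ≃ₗ[F] V)} (hS : ActsPure τ S) : ∃ K, S ⊓ Om Q < K ∧ K < Om Q := by
  have : Finite V := Module.finite_of_finite F
  obtain ⟨c, hc, hns⟩ := exists_noSingPerp_three hsq (ndOn_top hQ₁) (by rw [finrank_top, hd₁])
  have hfr := hns.frame hsq h2 hc
  obtain ⟨a, ha⟩ := Orth.exists_Q_eq hQ₁ (by omega) c
  have ha0 : a ≠ 0 := by rintro rfl; exact hc (by simpa using ha.symm)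
  obtain ⟨a', ha', haa'⟩ := exists_nonsingular_perp hQ₁ (W := Submodule.span F {a})
    (by rw [finrank_span_singleton ha0]; omega)
  replace haa' := haa' a (Submodule.mem_span_singleton_self a)
  have ha'a : polar Q₁ a' a = 0 := by rw [polar_comm, haa']
  have haa : polar Q₁ a a ≠ 0 := by rw [polar_self', ha]; exact mul_ne_zero h2 hc
  have ha'a' : polar Q₁ a' a' ≠ 0 := by rw [polar_self']; exact mul_ne_zero h2 ha'
  obtain ⟨y, v, w, r, hy, hyv, hyw, hvw, hvr, hyr⟩ := exists_test_vectors hQ₂ hd₂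
  have hyy : polar Q₂ y y = 0 := by rw [polar_self', hy, mul_zero]
  have hsing : ∀ x, Q (τ x y) = 0 := fun x => by
    have := hτ x y x y
    rw [polar_self', hyy, mul_zero] at this
    exact (mul_eq_zero.1 this).resolve_left h2
  refine btw_of_set (X := {z | ∃ x y, Q₁ x = c ∧ z = τ x y}) (Set.toFinite _) ?_ ?_ ?_
  · rintro g hg hg' _ ⟨x, y', hx, rfl⟩
    obtain ⟨α, β, hab⟩ := hS g hg
    obtain ⟨l, hl, hl'⟩ := exists_multiplier hc₀ hτ ⟨a, a, haa⟩ ⟨v, w, by rw [hvw]; exact one_ne_zero⟩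
      (Om_map_polar hg') hab
    have hlQ : ∀ x, Q₁ (α x) = l * Q₁ x := fun x => by
      have := hl' x x
      rw [polar_self', polar_self'] at this
      exact mul_left_cancel₀ h2 (by linear_combination this)
    have hl1 : l = 1 := by
      by_contra hne
      have hl2 : l = -1 := (mul_self_eq_one_iff.1 (hsq l hl)).resolve_left hne
      obtain ⟨z, hz0, hz⟩ := OrthE.exists_singular Q₁ hd₁.ge
      obtain ⟨p, hp, hzp⟩ := exists_nonsingular_perp hQ₁ (W := Submodule.span F {z})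
        (by rw [finrank_span_singleton hz0]; omega)
      replace hzp := hzp z (Submodule.mem_span_singleton_self z)
      rw [polar_comm] at hzp
      rcases mul_self_eq_mul_self_iff.1 ((hsq _ hp).trans (hsq _ hc).symm) with h | h
      · exact hz0 (hns p trivial z trivial h hz hzp)
      · refine hz0 (α.map_eq_zero_iff.1 (hns (α p) trivial (α z) trivial ?_ ?_ ?_))
        · rw [hlQ, h, hl2]; ring
        · rw [hlQ, hz, mul_zero]
        · rw [hl', hzp, mul_zero]
    exact ⟨α x, β y', by rw [hlQ, hl1, one_mul, hx], hab x y'⟩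
  · have huw : polar Q (τ a y) (τ a w) = 0 := by rw [hτ, hyw, mul_zero]
    refine ⟨_, eichler_mem_Om hQ h5 (hsing a) huw, fun hg => ?_, ?_⟩
    · obtain ⟨α, β, hab⟩ := hS _ hg
      have h1 := hab (a + a') v
      rw [eichler_apply_of_perp (hsing a) huw (by rw [hτ, hyv, mul_zero]), hτ,
        polar_comm Q₂ w, hvw, polar_add_right, haa', add_zero, mul_one] at h1
      have h3 := minor_eq_zero hτ ⟨_, _, h1⟩ a a' r w (by
        simp only [polar_add_left, polar_smul_left, hτ, hvr, haa']; simp)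
      simp only [polar_add_left, polar_smul_left, hτ, hvr, haa', hyr, hvw, hyw] at h3
      simp [hc₀, h2, ha, hc, ha'] at h3
    · rintro _ ⟨x, y', hx, rfl⟩
      rw [LinearEquiv.smul_def, eichler_apply]
      rcases hfr a trivial x trivial ha hx with rfl | rfl | h
      · rw [← map_smul, ← map_smul, ← map_smul, ← map_add, ← map_sub, ← map_sub]
        exact ⟨x, _, hx, rfl⟩
      · rw [map_neg, LinearMap.neg_apply, ← map_neg, ← map_smul, ← map_smul, ← map_smul, ← map_add,
          ← map_sub, ← map_sub]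
        exact ⟨a, _, ha, rfl⟩
      · exact ⟨x, y', hx, by simp [hτ, h]⟩
  · obtain ⟨g, hg, hgz, -⟩ := exists_Om_add hQ h5 (u := τ a' y) (z := τ a v) (hsing a')
      (by rw [hτ, hyv, mul_zero]) (fun h => by
        obtain ⟨d, hd⟩ := Submodule.mem_span_singleton.1 h
        have := congrArg (fun z => polar Q z (τ a w)) hd
        simp only [polar_smul_left, hτ, hyw, hvw] at this
        simp [hc₀, h2, ha, hc] at this)
    refine ⟨g, hg, τ a v, ⟨a, v, ha, rfl⟩, ?_⟩
    rintro ⟨x, y', -, h1⟩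
    rw [LinearEquiv.smul_def, hgz] at h1
    have h3 := minor_eq_zero hτ ⟨_, _, h1⟩ a' a r w (by
      simp only [polar_add_left, hτ, hvr, ha'a]; simp)
    simp only [polar_add_left, hτ, hvr, haa', hyr, hvw, hyw] at h3
    simp [hc₀, h2, ha, hc, ha'] at h3

omit [FiniteDimensional F V₁] [FiniteDimensional F V₂] in
/-- An isometry `J` of order three without fixed vectors whose cyclic group is normalised. -/
theorem btw_order_three [Finite F] (h01 : ∀ x : F, x = 0 ∨ x = 1)
    (hQ : (polarBilin Q).Nondegenerate) (h5 : 5 ≤ finrank F V) {J : V →ₗ[F] V}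
    (hJ : ∀ v, J (J v) = v + J v) (hJQ : ∀ v, Q (J v) = Q v) {U : Submodule F V}
    (hU : ∀ u ∈ U, Q u = 0) (hU3 : 3 ≤ finrank F U) (hUJ : ∀ u ∈ U, J u ∈ U → u = 0)
    {S : Subgroup (V ≃ₗ[F] V)}
    (hS1 : ∀ g ∈ S, (∀ v, g (J v) = J (g v)) ∨ ∀ v, g (J v) = g v + J (g v))
    (hS2 : ∀ g ∈ S, (∀ u ∈ U, g u ∈ U) ∨ (∀ u ∈ U, J (g u) ∈ U) ∨ ∀ u ∈ U, J (J (g u)) ∈ U) :
    ∃ K, S ⊓ Om Q < K ∧ K < Om Q := by
  have : Finite V := Module.finite_of_finite F
  have h2 : (2 : F) = 0 := by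
    rcases h01 (1 + 1) with h | h
    · linear_combination h
    · exact absurd (by linear_combination h : (1 : F) = 0) one_ne_zero
  have hV : ∀ z : V, z + z = 0 := fun z => by rw [← two_smul F, h2, zero_smul]
  have hself : ∀ z, polar Q z z = 0 := fun z => by rw [polar_self', h2, zero_mul]
  have hJp : ∀ v w, polar Q (J v) (J w) = polar Q v w := fun v w => by
    simp only [polar, ← map_add, hJQ]
  have hvJ : ∀ v, polar Q v (J v) = Q v := fun v => by
    rw [polar, ← hJ, hJQ, hJQ]; linear_combination -(Q v) * h2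
  obtain ⟨z, hz, hz0, -⟩ := exists_ne_zero_perp (Q := Q) (W := U) (by omega) 0
  obtain ⟨x, hx, hxz⟩ : ∃ x, Q x = 1 ∧ polar Q x z = 1 := by
    obtain ⟨x', hx'⟩ := exists_polar_eq hQ hz0 1
    refine ⟨x' + (1 - Q x') • z, ?_, ?_⟩
    · rw [Q_add, Q_smul, hU z hz, polar_smul_right, polar_comm, hx']; simp
    · rw [polar_add_left, polar_smul_left, hself, polar_comm, hx']; simp
  have hJx : Q (J x) = 1 := by rw [hJQ, hx]
  have hxJ : polar Q x (J x) = 1 := by rw [hvJ, hx]
  refine btw_of_set (α := V × V) (X := {p | p.2 = J p.1 ∨ p.2 = p.1 + J p.1}) (Set.toFinite _)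
    ?_ ?_ ?_
  · rintro g hg - ⟨v, w⟩ hp
    change g w = J (g v) ∨ g w = g v + J (g v)
    change w = J v ∨ w = v + J v at hp
    rcases hS1 g hg with h | h <;> rcases hp with rfl | rfl
    · exact Or.inl (h v)
    · exact Or.inr (by rw [map_add, h])
    · exact Or.inr (h v)
    · exact Or.inl (by rw [map_add, h, ← add_assoc, hV, zero_add])
  · have hg : ∀ y, (refl Q x * refl Q (J x)).1 y
        = y + polar Q (J x) y • J x + (polar Q x y + polar Q (J x) y) • x := fun y => by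
      rw [OG.mul_apply, refl_apply, refl_apply, hx, hJx, polar_sub_right, polar_smul_right, hxJ]
      simp only [inv_one, one_mul, smul_eq_mul, mul_one]
      match_scalars
      · rfl
      · linear_combination -(polar Q (J x) y) * h2
      · linear_combination -(polar Q x y) * h2
    have hc : ∀ y, (refl Q x * refl Q (J x)).1 (J y) = J ((refl Q x * refl Q (J x)).1 y) := by
      intro y
      have e1 : polar Q x (J y) = polar Q x y + polar Q (J x) y := by
        have h3 : J (J (J x)) = x := by rw [hJ, hJ, add_left_comm, hV, add_zero]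
        conv_lhs => rw [← h3, hJp, hJ, polar_add_left]
      rw [hg, hg, hJp, e1, map_add, map_add, map_smul, map_smul, hJ]
      match_scalars
      · rfl
      · linear_combination -(polar Q (J x) y) * h2
      · linear_combination (polar Q x y) * h2
    refine ⟨_, mem_Om (refl_mul_refl_mem_commutator hQ (x := x) (y := J x)
      (by rw [hx]; exact one_ne_zero) (by rw [hJx]; exact one_ne_zero) ⟨1, by rw [hx, hJx]⟩),
      fun hS => ?_, ?_⟩
    · obtain ⟨u, hu, hu0, h1, h3⟩ := exists_ne_zero_perp_two (Q := Q) hU3 x (J x)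
      have hgu : (refl Q x * refl Q (J x)).1 u = u := by rw [hg, h1, h3]; simp
      rcases hS2 _ hS with h | h | h
      · have h4 := U.sub_mem (h z hz) hz
        rw [hg, hxz, add_assoc, add_sub_cancel_left] at h4
        have h5 := hU _ h4
        rcases h01 (polar Q (J x) z) with h6 | h6 <;> rw [h6] at h5
        · simp [hx] at h5
        · rw [one_add_one_eq_two, h2] at h5
          simp [hJx] at h5
      · exact hu0 (hUJ u hu (hgu ▸ h u hu))
      · have h4 := h u hu
        rw [hgu, hJ] at h4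
        exact hu0 (hUJ u hu (by simpa using U.sub_mem h4 hu))
    · rintro ⟨v, w⟩ hp
      change (refl Q x * refl Q (J x)).1 w = J ((refl Q x * refl Q (J x)).1 v) ∨
        (refl Q x * refl Q (J x)).1 w
          = (refl Q x * refl Q (J x)).1 v + J ((refl Q x * refl Q (J x)).1 v)
      change w = J v ∨ w = v + J v at hp
      rcases hp with rfl | rfl
      · exact Or.inl (hc v)
      · exact Or.inr (by rw [map_add, hc])
  · obtain ⟨u, hu0, hu, huW⟩ := exists_singular_perp hQ (W := Submodule.span F {x, J x}) (by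
      have := finrank_range_le_card (R := F) ![x, J x]
      rw [Set.finrank, Matrix.range_cons, Matrix.range_cons, Matrix.range_empty, Set.union_empty,
        Set.singleton_union, Fintype.card_fin] at this
      omega)
    have hux := huW x (Submodule.subset_span (by simp))
    have huJ := huW (J x) (Submodule.subset_span (by simp))
    obtain ⟨w, hw, hw'⟩ := exists_perp_polar_eq hQ (W := Submodule.span F {u, x}) (x := J x)
      (fun h => by
        obtain ⟨s, r, h⟩ := Submodule.mem_span_pair.1 h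
        rw [← h, polar_add_right, polar_smul_right, polar_smul_right, hself, polar_comm, hux] at hxJ
        simp at hxJ) 1
    have huw := hw u (Submodule.subset_span (by simp))
    have hxw := hw x (Submodule.subset_span (by simp))
    refine ⟨_, eichler_mem_Om hQ h5 hu huw, (x, J x), Or.inl rfl, fun h => ?_⟩
    change (eichler Q u w hu huw).1 (J x) = J ((eichler Q u w hu huw).1 x) ∨
      (eichler Q u w hu huw).1 (J x)
        = (eichler Q u w hu huw).1 x + J ((eichler Q u w hu huw).1 x) at h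
    rw [eichler_apply_of_perp hu huw hux, eichler_apply_of_perp hu huw huJ, polar_comm Q w,
      polar_comm Q w, hxw, hw', zero_smul, one_smul, add_zero] at h
    rcases h with h | h
    · exact hu0 (by simpa using h)
    · rw [add_comm, add_left_inj] at h
      rw [h, hx] at hu
      exact one_ne_zero hu

end Abstract

section MatGL

open Matrix Asch
open scoped Kronecker

variable {F : Type*} [Field F] {ι : Type} [Fintype ι] [DecidableEq ι] {n₁ n₂ : ℕ}

/-- The pure tensor `x ⊗ y` in the coordinates `(e, P)`. -/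
def tau (e : ι ≃ Fin n₁ × Fin n₂) (P : GL ι F) :
    (Fin n₁ → F) →ₗ[F] (Fin n₂ → F) →ₗ[F] (ι → F) :=
  LinearMap.mk₂ F (fun x y => (coordV e P).symm fun a => x a.1 * y a.2)
    (fun x x' y => by rw [← map_add]; congr 1; funext a; simp [add_mul])
    (fun c x y => by rw [← map_smul]; congr 1; funext a; simp [mul_assoc])
    (fun x y y' => by rw [← map_add]; congr 1; funext a; simp [mul_add])
    (fun c x y => by rw [← map_smul]; congr 1; funext a; simp [mul_left_comm])

theorem tau_apply (e : ι ≃ Fin n₁ × Fin n₂) (P : GL ι F) (x : Fin n₁ → F) (y : Fin n₂ → F) :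
    tau e P x y = (coordV e P).symm fun a => x a.1 * y a.2 := rfl

theorem coord_kron_tau (e : ι ≃ Fin n₁ × Fin n₂) (P : GL ι F) (a : Matrix (Fin n₁) (Fin n₁) F)
    (b : Matrix (Fin n₂) (Fin n₂) F) (x : Fin n₁ → F) (y : Fin n₂ → F) :
    coord e P (a ⊗ₖ b) *ᵥ tau e P x y = tau e P (a *ᵥ x) (b *ᵥ y) := by
  rw [tau_apply, tau_apply, coord_mulVec_symm]
  congr 1
  funext p
  simp only [mulVec, dotProduct, Fintype.sum_prod_type, kroneckerMap_apply, Finset.sum_mul_sum]
  exact Finset.sum_congr rfl fun _ _ => Finset.sum_congr rfl fun _ _ => by ring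

theorem tau_form {σ : F →+* F} {f : (ι → F) → (ι → F) → F} {f₁ : (Fin n₁ → F) → (Fin n₁ → F) → F}
    {f₂ : (Fin n₂ → F) → (Fin n₂ → F) → F} (h₁ : IsSesq0 σ f₁) (h₂ : IsSesq0 σ f₂)
    {e : ι ≃ Fin n₁ × Fin n₂} {P : GL ι F} (hT : IsTensorFormStructure σ f f₁ f₂ e P) :
    ∃ c : F, c ≠ 0 ∧ ∀ x y x' y', f (tau e P x y) (tau e P x' y') = c * f₁ x x' * f₂ y y' := by
  obtain ⟨c, hc, h⟩ := hT
  refine ⟨c, hc, fun x y x' y' => (h _ _).trans ?_⟩
  rw [mul_assoc, h₁.eq_gform, h₂.eq_gform, gform_eq_sum, gform_eq_sum, formOfGram]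
  congr 1
  simp only [Fintype.sum_prod_type, kroneckerMap_apply, map_mul, Finset.sum_mul_sum]
  refine Finset.sum_congr rfl fun _ _ => Finset.sum_congr rfl fun _ _ => ?_
  exact Finset.sum_congr rfl fun _ _ => Finset.sum_congr rfl fun _ _ => by ring

theorem eq_comap_map (S : Subgroup (GL ι F)) :
    S = (S.map (toEquiv (ι := ι) (F := F)).toMonoidHom).comap
      (toEquiv (ι := ι) (F := F)).toMonoidHom :=
  (Subgroup.comap_map_eq_self_of_injective toEquiv.injective S).symm

theorem actsPure_tau (e : ι ≃ Fin n₁ × Fin n₂) (P : GL ι F) : ActsPure (tau e P)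
    ((tensorProductSubgroup n₁ n₂ e P).map (toEquiv (ι := ι) (F := F)).toMonoidHom) := by
  rintro _ ⟨g, hg, rfl⟩
  obtain ⟨a, b, hab⟩ := mem_tensorProductSubgroup'.1 hg
  refine ⟨toEquiv a, toEquiv b, fun x y => ?_⟩
  change (g : Matrix ι ι F) *ᵥ _ = _
  rw [hab, coord_kron_tau]; rfl

/-- The quadratic form `x ↦ f x x` of a bilinear form. -/
def diagQF {κ : Type} {f : (κ → F) → (κ → F) → F} (hf : IsBilinearForm f) :
    QuadraticForm F (κ → F) :=
  LinearMap.BilinMap.toQuadraticMap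
    (LinearMap.mk₂ F f hf.add_left hf.smul_left hf.add_right fun c x y => hf.smul_right c x y)

theorem polar_diagQF {κ : Type} {f : (κ → F) → (κ → F) → F} (hf : IsSymmetricForm f)
    (x y : κ → F) : polar (diagQF hf.bilinear) x y = 2 * f x y := by
  rw [diagQF, LinearMap.BilinMap.polar_toQuadraticMap]
  change f x y + f y x = _
  rw [hf.symm y x, two_mul]

theorem diagQF_nd (h2 : (2 : F) ≠ 0) {κ : Type} {f : (κ → F) → (κ → F) → F}
    (hf : IsSymmetricForm f) : (polarBilin (diagQF hf.bilinear)).Nondegenerate := by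
  refine nondegenerate_of_polar fun x hx => ?_
  by_contra h0
  obtain ⟨y, hy⟩ := (hf.nondegenerate x h0).2
  exact mul_ne_zero h2 hy (by rw [← polar_diagQF hf, hx])

/-- `O₃(3) ⊗ O_m(3)`. -/
theorem omega_tensor_three_not_maximal [Fintype F] (hq : Fintype.card F = 3) {Q : (ι → F) → F}
    (hQ : IsNondegenerateQuadraticForm Q) (h3 : 3 ≤ n₂) {e : ι ≃ Fin 3 × Fin n₂} {P : GL ι F}
    {f₁ : (Fin 3 → F) → (Fin 3 → F) → F} {f₂ : (Fin n₂ → F) → (Fin n₂ → F) → F}
    (hf₁ : IsSymmetricForm f₁) (hf₂ : IsSymmetricForm f₂)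
    (hT : IsTensorFormStructure id (polar Q) f₁ f₂ e P) :
    ∃ K, tensorProductSubgroup 3 n₂ e P ⊓ omegaGL Q < K ∧ K < omegaGL Q := by
  have h2 : (2 : F) ≠ 0 := two_ne_zero_of_odd_card (by rw [hq]; decide)
  obtain ⟨c, hc, hτ⟩ := tau_form (σ := RingHom.id F) (isSesq0_of_bilin hf₁.bilinear)
    (isSesq0_of_bilin hf₂.bilinear) hT
  have hcard : Fintype.card ι = 3 * n₂ := by simpa using Fintype.card_congr e
  refine btw_gl (eq_comap_map _) (omegaGL_eq_Om (toQF hQ))
    (btw_tensor_three (fun _ hx => mul_self_eq_one_of_card_le hq.le hx) h2 (toQF_nd hQ)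
      (by simp; omega) (diagQF_nd h2 hf₁) (by simp) (diagQF_nd h2 hf₂) (by simpa using h3)
      (c₀ := c / (2 * 2)) (div_ne_zero hc (mul_ne_zero h2 h2)) (fun x y x' y' => ?_)
      (actsPure_tau e P))
  rw [polar_diagQF hf₁, polar_diagQF hf₂, toQF_coe, hτ]
  field_simp

theorem eq_tau_add_tau (e : ι ≃ Fin 2 × Fin n₂) (P : GL ι F) (v : ι → F) :
    ∃ y y', v = tau e P ![1, 0] y + tau e P ![0, 1] y' := by
  refine ⟨fun j => coordV e P v (0, j), fun j => coordV e P v (1, j), ?_⟩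
  rw [tau_apply, tau_apply, ← map_add, LinearEquiv.eq_symm_apply]
  funext ⟨i, j⟩
  fin_cases i <;> simp

/-- `Sp₂(2) ⊗ Sp_m(2)`. -/
theorem omega_tensor_symp_not_maximal [Fintype F] (hq : Fintype.card F = 2) {Q : (ι → F) → F}
    (hQ : IsNondegenerateQuadraticForm Q) (h3 : 3 ≤ n₂) {e : ι ≃ Fin 2 × Fin n₂} {P : GL ι F}
    {f₁ : (Fin 2 → F) → (Fin 2 → F) → F} {f₂ : (Fin n₂ → F) → (Fin n₂ → F) → F}
    (hf₁ : IsSymplecticForm f₁) (hf₂ : IsSymplecticForm f₂)
    (hT : IsTensorFormStructure id (polar Q) f₁ f₂ e P)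
    (hpure : ∀ (x₁ : Fin 2 → F) (x₂ : Fin n₂ → F), Q ((P : Matrix ι ι F) *ᵥ
      ((fun a : Fin 2 × Fin n₂ => x₁ a.1 * x₂ a.2) ∘ e)) = 0) :
    ∃ K, tensorProductSubgroup 2 n₂ e P ⊓ omegaGL Q < K ∧ K < omegaGL Q := by
  have h01 := eq_zero_or_one_of_card hq
  have h2 : (1 : F) + 1 = 0 := by
    rw [one_add_one_eq_two]; exact two_eq_zero_of_even (by rw [hq]; decide)
  obtain ⟨c, hc, hτ⟩ := tau_form (σ := RingHom.id F) (isSesq0_of_bilin hf₁.bilinear)
    (isSesq0_of_bilin hf₂.bilinear) hT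
  have hcard : Fintype.card ι = 2 * n₂ := by simpa using Fintype.card_congr e
  have hp : ∀ x y, toQF hQ (tau e P x y) = 0 := hpure
  have hτ' : ∀ x y x' y', polar (toQF hQ) (tau e P x y) (tau e P x' y') = c * f₁ x x' * f₂ y y' :=
    hτ
  let ω : Matrix (Fin 2) (Fin 2) F := !![0, 1; 1, 1]
  let J : (ι → F) →ₗ[F] (ι → F) := Matrix.toLin' (coord e P (ω ⊗ₖ (1 : Matrix _ _ F)))
  have hJt : ∀ x y, J (tau e P x y) = tau e P ![x 1, x 0 + x 1] y := fun x y => by
    rw [Matrix.toLin'_apply, coord_kron_tau, one_mulVec]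
    congr 2
    funext i
    fin_cases i <;> simp [ω, mulVec, dotProduct, Fin.sum_univ_two]
  have hext : ∀ {A B : (ι → F) →ₗ[F] (ι → F)},
      (∀ y, A (tau e P ![1, 0] y) = B (tau e P ![1, 0] y)) →
      (∀ y, A (tau e P ![0, 1] y) = B (tau e P ![0, 1] y)) → ∀ v, A v = B v := by
    intro A B h1 h3 v
    obtain ⟨y, y', rfl⟩ := eq_tau_add_tau e P v
    rw [map_add, map_add, h1, h3]
  have hadd : ∀ (x x' : Fin 2 → F) y, tau e P x y + tau e P x' y
      = tau e P ![x 0 + x' 0, x 1 + x' 1] y := fun x x' y => by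
    rw [← LinearMap.add_apply, ← map_add]
    congr 2
    funext i
    fin_cases i <;> simp
  have hf : f₁ ![1, 0] ![0, 1] ≠ 0 := by
    obtain ⟨x, hx⟩ := (hf₁.nondegenerate ![1, 0] (fun h => by simpa using congrFun h 0)).2
    have : x = x 0 • ![1, 0] + x 1 • ![0, 1] := by funext i; fin_cases i <;> simp
    rw [this, hf₁.bilinear.add_right, hf₁.bilinear.smul_right, hf₁.bilinear.smul_right,
      hf₁.alternating] at hx
    intro h
    simp [h] at hx
  have hinj : ∀ y, tau e P ![0, 1] y ∈ LinearMap.range (tau e P ![1, 0]) → y = 0 := by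
    rintro y ⟨y', hy⟩
    by_contra h0
    obtain ⟨w, hw⟩ := (hf₂.nondegenerate y h0).1
    have := hτ' ![1, 0] w ![0, 1] y
    rw [← hy, hτ', hf₁.alternating, mul_zero, zero_mul] at this
    exact mul_ne_zero (mul_ne_zero hc hf) hw this.symm
  refine btw_gl (eq_comap_map _) (omegaGL_eq_Om (toQF hQ))
    (btw_order_three h01 (toQF_nd hQ) (by simp; omega) (J := J)
      (U := LinearMap.range (tau e P ![1, 0])) ?_ ?_ ?_ ?_ ?_ ?_ ?_)
  · refine hext (A := J ∘ₗ J) (B := LinearMap.id + J) (fun y => ?_) fun y => ?_ <;>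
      simp [hJt, hadd, h2]
  · intro v
    obtain ⟨y, y', rfl⟩ := eq_tau_add_tau e P v
    have e1 : (![1, 1] : Fin 2 → F) = ![1, 0] + ![0, 1] := by funext i; fin_cases i <;> simp
    rw [map_add, hJt, hJt, Q_add, Q_add, hp, hp, hp, hp, hτ', hτ']
    simp only [Matrix.cons_val_zero, Matrix.cons_val_one, add_zero, zero_add]
    rw [e1, hf₁.bilinear.add_right, hf₁.alternating, hf₁.skew]
    linear_combination -(c * f₁ ![1, 0] ![0, 1] * f₂ y y') * h2
  · rintro _ ⟨y, rfl⟩
    exact hp _ _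
  · rw [LinearMap.finrank_range_of_inj]
    · simpa using h3
    · rw [← LinearMap.ker_eq_bot, LinearMap.ker_eq_bot']
      intro y hy
      by_contra h0
      obtain ⟨w, hw⟩ := (hf₂.nondegenerate y h0).2
      have := hτ' ![1, 0] y ![0, 1] w
      rw [hy, polar_zero_left] at this
      exact mul_ne_zero (mul_ne_zero hc hf) hw this.symm
  · rintro _ ⟨y, rfl⟩ h
    rw [hJt] at h
    rw [hinj y (by simpa using h), map_zero]
  · intro g hg
    obtain ⟨a, b, hab⟩ := actsPure_tau e P g hg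
    have e1 : (![1, 1] : Fin 2 → F) = ![1, 0] + ![0, 1] := by funext i; fin_cases i <;> simp
    have h1 : a ![1, 0] ≠ 0 := by simp
    have h3 : a ![0, 1] ≠ 0 := by simp
    have h4 : a ![1, 0] ≠ a ![0, 1] := by simp
    have h5 : a ![1, 1] = ![a ![1, 0] 0 + a ![0, 1] 0, a ![1, 0] 1 + a ![0, 1] 1] := by
      rw [e1, map_add]; funext i; fin_cases i <;> simp
    have key : ∀ p r : Fin 2 → F, p ≠ 0 → r ≠ 0 → p ≠ r →
        (r = ![p 1, p 0 + p 1] ∧ ![p 0 + r 0, p 1 + r 1] = ![r 1, r 0 + r 1]) ∨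
        (r = ![p 0 + p 1, p 1 + (p 0 + p 1)] ∧
          ![p 0 + r 0, p 1 + r 1] = ![r 0 + r 1, r 1 + (r 0 + r 1)]) := by
      intro p r hp hr hpr
      have ep : p = ![p 0, p 1] := by funext i; fin_cases i <;> rfl
      have er : r = ![r 0, r 1] := by funext i; fin_cases i <;> rfl
      rw [ep] at hp hpr
      rw [er] at hr hpr
      conv => enter [1, 1, 1]; rw [er]
      conv => enter [2, 1, 1]; rw [er]
      rcases h01 (p 0) with h0 | h0 <;> rcases h01 (p 1) with h1 | h1 <;>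
        rcases h01 (r 0) with h3 | h3 <;> rcases h01 (r 1) with h4 | h4 <;>
        simp [h0, h1, h3, h4, h2] at hp hr hpr ⊢
    rcases key _ _ h1 h3 h4 with ⟨k1, k2⟩ | ⟨k1, k2⟩
    · left
      refine hext (A := g.toLinearMap ∘ₗ J) (B := J ∘ₗ g.toLinearMap) (fun y => ?_) fun y => ?_
      · simp only [LinearMap.comp_apply, LinearEquiv.coe_coe, hJt, hab]
        simp [← k1]
      · simp only [LinearMap.comp_apply, LinearEquiv.coe_coe, hJt, hab]
        simp [← k2, h5]
    · right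
      refine hext (A := g.toLinearMap ∘ₗ J) (B := g.toLinearMap + J ∘ₗ g.toLinearMap)
        (fun y => ?_) fun y => ?_
      · simp only [LinearMap.comp_apply, LinearMap.add_apply, LinearEquiv.coe_coe, hJt, hab, hadd]
        simp [← k1]
      · simp only [LinearMap.comp_apply, LinearMap.add_apply, LinearEquiv.coe_coe, hJt, hab, hadd]
        simp [← k2, h5]
  · intro g hg
    obtain ⟨a, b, hab⟩ := actsPure_tau e P g hg
    have h1 : a ![1, 0] ≠ 0 := by simp
    have ep : a ![1, 0] = ![a ![1, 0] 0, a ![1, 0] 1] := by funext i; fin_cases i <;> rfl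
    rw [ep] at h1
    rcases h01 (a ![1, 0] 0) with h3 | h3 <;> rcases h01 (a ![1, 0] 1) with h4 | h4
    · simp [h3, h4] at h1
    · right; right
      rintro _ ⟨y, rfl⟩
      exact ⟨b y, by rw [hab, hJt, hJt]; simp [h3, h4, h2]⟩
    · left
      rintro _ ⟨y, rfl⟩
      exact ⟨b y, by rw [hab, ep, h3, h4]⟩
    · right; left
      rintro _ ⟨y, rfl⟩
      exact ⟨b y, by rw [hab, hJt]; simp [h3, h4, h2]⟩

end MatGL

end CfsgLib.NonMax
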