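import Mathlib
import Cfsg.Agent.Lib.NonMax.Tens
import Cfsg.Agent.Lib.Forms.Normal

/-!
The stabiliser of a tensor power decomposition with symplectic factors of dimension two or four in
characteristic two is not maximal in `Ω`: it normalises a space of endomorphisms satisfying
Clifford relations (the spin module of a larger symplectic group).
-/

set_option autoImplicit false

namespace CfsgLib.NonMax

open CfsgLib.Orth CfsgLib.ClMax Module QuadraticMap Cfsg Cfsg.Geo
open CfsgLib.RootMax (Om toQF toQF_coe toQF_nondeg omegaGL_eq_Om)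
open scoped MatrixGroups commutatorElement

section Core

variable {F V : Type*} [Field F] [AddCommGroup V] [Module F V]

/-- Conjugation of an endomorphism. -/
def cjE (g : V ≃ₗ[F] V) (x : End F V) : End F V := (g : End F V) * x * (g.symm : End F V)

theorem cjE_apply (g : V ≃ₗ[F] V) (x : End F V) (v : V) : cjE g x v = g (x (g.symm v)) := rfl

theorem cjE_apply_apply (g : V ≃ₗ[F] V) (x : End F V) (v : V) : cjE g x (g v) = g (x v) := by
  rw [cjE_apply, LinearEquiv.symm_apply_apply]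

theorem cjE_mul (g h : V ≃ₗ[F] V) (x : End F V) : cjE (g * h) x = cjE g (cjE h x) := rfl

theorem cjE_add (g : V ≃ₗ[F] V) (x y : End F V) : cjE g (x + y) = cjE g x + cjE g y := by
  simp only [cjE, mul_add, add_mul]

theorem cjE_one (g : V ≃ₗ[F] V) : cjE g (1 : End F V) = 1 := by
  ext v; simp [cjE_apply]

theorem cjE_zero (g : V ≃ₗ[F] V) : cjE g (0 : End F V) = 0 := by
  ext v; simp [cjE_apply]

theorem cjE_smul (g : V ≃ₗ[F] V) (c : F) (x : End F V) : cjE g (c • x) = c • cjE g x := by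
  ext v; simp [cjE_apply]

theorem trace_cjE (g : V ≃ₗ[F] V) (x : End F V) :
    LinearMap.trace F V (cjE g x) = LinearMap.trace F V x := LinearMap.trace_conj' x g

variable (F V) in
/-- The conjugation action on endomorphisms. -/
abbrev cjAction : MulAction (V ≃ₗ[F] V) (End F V) where
  smul := cjE
  one_smul _ := rfl
  mul_smul := cjE_mul

theorem btw_of_cj {S G : Subgroup (V ≃ₗ[F] V)} {X : Set (End F V)} (hX : X.Finite)
    (h1 : ∀ g ∈ S, g ∈ G → ∀ v ∈ X, cjE g v ∈ X)
    (h2 : ∃ g ∈ G, g ∉ S ∧ ∀ v ∈ X, cjE g v ∈ X)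
    (h3 : ∃ g ∈ G, ∃ v ∈ X, cjE g v ∉ X) : ∃ K, S ⊓ G < K ∧ K < G :=
  @btw_of_set _ _ _ (cjAction F V) S G X hX h1 h2 h3

variable {Q : QuadraticForm F V}

/-- An involution of the polar form preserving `Q` on a spanning set preserves `Q`. -/
theorem map_Q_of_span {P : Set V} (hP : Submodule.span F P = ⊤) {w : End F V}
    (hw : ∀ u v, polar Q (w u) (w v) = polar Q u v) (hp : ∀ p ∈ P, Q (w p) = Q p) (v : V) :
    Q (w v) = Q v := by
  have hv : v ∈ Submodule.span F P := hP ▸ Submodule.mem_top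
  induction hv using Submodule.span_induction with
  | mem p h => exact hp p h
  | zero => simp
  | add x y _ _ hx hy => rw [map_add, Q_add, Q_add, hx, hy, hw]
  | smul c x _ hx => rw [map_smul, Q_smul, Q_smul, hx]

theorem btw_clifford [Finite F] [FiniteDimensional F V] (h2 : (2 : F) = 0)
    (hQ : (polarBilin Q).Nondegenerate) (h5 : 5 ≤ finrank F V) {W : Submodule F (End F V)}
    (hcl : ∀ x ∈ W, ∀ y ∈ W, ∃ c : F, x * y + y * x = c • 1) (h1 : 1 ∈ W)
    {e₁ f₁ e₂ f₂ : End F V} (he₁ : e₁ ∈ W) (hf₁ : f₁ ∈ W) (he₂ : e₂ ∈ W)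
    (ee₁ : e₁ * e₁ = 0) (ff₁ : f₁ * f₁ = 0) (ee₂ : e₂ * e₂ = 0) (ef₁ : e₁ * f₁ + f₁ * e₁ = 1)
    (ef₂ : e₂ * f₂ + f₂ * e₂ = 1) (c₁ : e₂ * e₁ = e₁ * e₂) (c₂ : e₂ * f₁ = f₁ * e₂)
    (c₃ : f₂ * e₁ = e₁ * f₂)
    (a₁ : ∀ u v, polar Q (e₁ u) v = polar Q u (e₁ v))
    (a₂ : ∀ u v, polar Q (f₁ u) v = polar Q u (f₁ v))
    (a₃ : ∀ u v, polar Q (e₂ u) v = polar Q u (e₂ v))
    {P : Set V} (hP : Submodule.span F P = ⊤) (hPQ : ∀ p ∈ P, Q p = 0)
    (p₁ : ∀ p ∈ P, e₁ p ∈ P) (p₂ : ∀ p ∈ P, f₁ p ∈ P) (p₃ : ∀ p ∈ P, e₂ p ∈ P)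
    (p₄ : ∀ p ∈ P, f₂ p ∈ P)
    (q₁ : ∀ p ∈ P, polar Q p (e₁ p) = 0) (q₂ : ∀ p ∈ P, polar Q p (f₁ p) = 0)
    (q₃ : ∀ p ∈ P, polar Q p (e₂ p) = 0) (q₄ : ∀ p ∈ P, polar Q (e₁ p) (e₂ p) = 0)
    (q₅ : ∀ p ∈ P, polar Q (f₁ p) (f₂ p) = 0) {S : Subgroup (V ≃ₗ[F] V)}
    (hS₁ : ∀ g ∈ S, g ∈ Om Q → ∀ x ∈ W, cjE g x ∈ W)
    (hS₂ : ∀ g ∈ S, cjE g f₁ * f₁ = f₁ * cjE g f₁ ∨ cjE g f₁ * f₂ = f₂ * cjE g f₁) :
    ∃ K, S ⊓ Om Q < K ∧ K < Om Q := by
  have : Finite V := Module.finite_of_finite F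
  have : Finite (End F V) := Module.finite_of_finite F
  have : Nontrivial V := Module.nontrivial_of_finrank_pos (R := F) (by omega)
  have hR : ∀ x : End F V, x + x = 0 := fun x => by rw [← two_smul F, h2, zero_smul]
  have hV : ∀ x : V, x + x = 0 := fun x => by rw [← two_smul F, h2, zero_smul]
  -- involutions in `W` that are isometries
  have key : ∀ w ∈ W, w * w = 1 → (∀ u v, polar Q (w u) v = polar Q u (w v)) →
      (∀ p ∈ P, Q (w p) = 0) → ∃ g : OG Q, g⁻¹ = g ∧ (∀ x, cjE g.1 x = w * x * w) ∧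
        ∀ x ∈ W, cjE g.1 x ∈ W := by
    intro w hw hww ha hp
    have hwv : ∀ v, w (w v) = v := fun v => by rw [← Module.End.mul_apply, hww]; rfl
    refine ⟨OG.mk' Q w w (map_Q_of_span hP (fun u v => by rw [ha, hwv])
      fun p h => by rw [hp p h, hPQ p h]) hwv hwv, ?_, fun x => rfl, fun x hx => ?_⟩
    · exact inv_eq_of_mul_eq_one_right (OG.ext hwv)
    · change w * x * w ∈ W
      obtain ⟨c, hc⟩ := hcl w hw x hx
      have : w * x * w = c • w - x := by
        rw [eq_sub_of_add_eq hc, sub_mul, smul_mul_assoc, one_mul, mul_assoc, hww, mul_one]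
      rw [this]
      exact W.sub_mem (W.smul_mem _ hw) hx
  refine btw_of_cj (X := W) (Set.toFinite _) hS₁ ?_ ?_
  · have s₁ : (1 + e₁ + e₂) * (1 + e₁ + e₂) = 1 := by
      have : (1 + e₁ + e₂) * (1 + e₁ + e₂)
          = 1 + (e₁ + e₁) + (e₂ + e₂) + e₁ * e₁ + e₂ * e₂ + (e₁ * e₂ + e₂ * e₁) := by noncomm_ring
      rw [this, c₁, hR, hR, hR, ee₁, ee₂]; simp
    have s₂ : (1 + f₁) * (1 + f₁) = 1 := by
      have : (1 + f₁) * (1 + f₁) = 1 + (f₁ + f₁) + f₁ * f₁ := by noncomm_ring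
      rw [this, hR, ff₁]; simp
    obtain ⟨g, gi, gc, gW⟩ := key (1 + e₁ + e₂) (W.add_mem (W.add_mem h1 he₁) he₂) s₁
      (fun u v => by simp [polar_add_left, polar_add_right, a₁, a₃]) fun p hp => by
        simp only [LinearMap.add_apply, Module.End.one_apply]
        rw [Q_add, Q_add, polar_add_left, hPQ p hp, hPQ _ (p₁ p hp), hPQ _ (p₃ p hp), q₁ p hp,
          q₃ p hp, q₄ p hp]
        simp
    obtain ⟨k, ki, kc, kW⟩ := key (1 + f₁) (W.add_mem h1 hf₁) s₂
      (fun u v => by simp [polar_add_left, polar_add_right, a₂]) fun p hp => by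
        simp only [LinearMap.add_apply, Module.End.one_apply]
        rw [Q_add, hPQ p hp, hPQ _ (p₂ p hp), q₂ p hp]
        simp
    have hcomm : (⁅g, k⁆ : OG Q).1 = g.1 * (k.1 * (g.1 * k.1)) := by
      rw [commutatorElement_def, gi, ki, mul_assoc, mul_assoc]; rfl
    refine ⟨_, mem_Om (Subgroup.commutator_mem_commutator (Subgroup.mem_top g)
      (Subgroup.mem_top k)), fun hS => ?_, fun x hx => ?_⟩
    · have fe₁ : f₁ * e₁ = e₁ * f₁ + 1 := by rw [← ef₁, ← add_assoc, hR, zero_add]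
      have t₁ : (1 + f₁) * f₁ * (1 + f₁) = f₁ := by
        rw [add_mul, ff₁, one_mul, add_zero, mul_add, ff₁, mul_one, add_zero]
      have t₂ : (1 + e₁ + e₂) * f₁ * (1 + e₁ + e₂) = f₁ + (1 + e₁ + e₂) := by
        have : (1 + e₁ + e₂) * f₁ = f₁ * (1 + e₁ + e₂) + 1 := by
          rw [add_mul, add_mul, mul_add, mul_add, fe₁, c₂, one_mul, mul_one]
          linear_combination (norm := abel) -hR 1
        rw [this, add_mul, mul_assoc, s₁, mul_one, one_mul]
      have t₃ : (1 + f₁) * (f₁ + (1 + e₁ + e₂)) * (1 + f₁) = e₁ + e₂ := by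
        have : (1 + f₁) * (f₁ + (1 + e₁ + e₂)) = (e₁ + e₂) * (1 + f₁) := by
          simp only [add_mul, mul_add, one_mul, mul_one, ff₁, fe₁, c₂]
          linear_combination (norm := abel) hR 1 + hR f₁
        rw [this, mul_assoc, s₂, mul_one]
      have t₄ : (1 + e₁ + e₂) * (e₁ + e₂) * (1 + e₁ + e₂) = e₁ + e₂ := by
        have : (1 + e₁ + e₂) * (e₁ + e₂) = (e₁ + e₂) * (1 + e₁ + e₂) := by noncomm_ring
        rw [this, mul_assoc, s₁, mul_one]
      have hc : cjE (⁅g, k⁆ : OG Q).1 f₁ = e₁ + e₂ := by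
        rw [hcomm, cjE_mul, cjE_mul, cjE_mul, kc f₁, t₁, gc f₁, t₂, kc, t₃, gc, t₄]
      have := hS₂ _ hS
      rw [hc, add_mul, mul_add, add_mul, mul_add, c₂, c₃, add_left_inj, add_right_inj] at this
      rcases this with h | h
      · rw [h, hR] at ef₁; exact zero_ne_one ef₁
      · rw [h, hR] at ef₂; exact zero_ne_one ef₂
    · rw [hcomm, cjE_mul, cjE_mul, cjE_mul]
      exact gW _ (kW _ (gW _ (kW _ hx)))
  · have app : ∀ {x y : End F V}, x = y → ∀ v, x v = y v := fun h v => by rw [h]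
    have r₁ : ∀ v, e₁ (e₁ v) = 0 := app ee₁
    have r₂ : ∀ v, e₂ (e₂ v) = 0 := app ee₂
    have r₃ : ∀ v, e₁ (f₁ v) + f₁ (e₁ v) = v := app ef₁
    have r₄ : ∀ v, e₂ (f₂ v) + f₂ (e₂ v) = v := app ef₂
    have r₅ : ∀ v, e₂ (e₁ v) = e₁ (e₂ v) := app c₁
    have r₆ : ∀ v, e₂ (f₁ v) = f₁ (e₂ v) := app c₂
    have r₇ : ∀ v, f₂ (e₁ v) = e₁ (f₂ v) := app c₃
    obtain ⟨p, hp, hu0⟩ : ∃ p ∈ P, e₁ (e₂ p) ≠ 0 := by
      by_contra hc
      push Not at hc
      have h3 : e₁ * e₂ = 0 := LinearMap.ext_on hP hc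
      have h4 : ∀ v, e₁ (e₂ v) = 0 := app h3
      have h5 : ∀ v, e₂ v = 0 := fun v => by
        rw [← r₃ (e₂ v), h4, ← r₆, h4]; simp
      obtain ⟨v, hv⟩ := exists_ne (0 : V)
      exact hv (by rw [← r₄ v, h5, h5]; simp)
    have huP := p₁ _ (p₃ p hp)
    have u₁ : e₁ (e₁ (e₂ p)) = 0 := r₁ _
    have u₂ : e₂ (e₁ (e₂ p)) = 0 := by rw [r₅, r₂, map_zero]
    generalize e₁ (e₂ p) = u at hu0 huP u₁ u₂
    have y₁ : e₁ (f₂ u) = 0 := by rw [← r₇, u₁, map_zero]
    have y₂ : e₂ (f₂ u) = u := by simpa [u₂] using r₄ u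
    have hyP := p₄ u huP
    have huw : polar Q u (f₁ (f₂ u)) = 0 := by rw [← a₂, q₅ u huP]
    generalize f₂ u = y at y₁ y₂ hyP huw
    have w₁ : e₁ (f₁ y) = y := by simpa [y₁] using r₃ y
    have w₂ : e₁ (f₁ u) = u := by simpa [u₁] using r₃ u
    have hwy : polar Q (f₁ y) y = 0 := by rw [polar_comm, q₂ y hyP]
    have hu := hPQ u huP
    refine ⟨_, eichler_mem_Om hQ h5 hu huw, e₁, he₁, fun hW => ?_⟩
    have hd : ∀ z, (cjE (eichler Q u (f₁ y) hu huw).1 e₁ - e₁) z
        = polar Q u z • y + polar Q y z • u := by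
      intro z
      obtain ⟨z, rfl⟩ := (eichler Q u (f₁ y) hu huw).1.surjective z
      have huu : polar Q u u = 0 := by rw [polar_self', hu, mul_zero]
      have hyu : polar Q y u = 0 := by rw [← w₁, a₁, u₁, polar_zero_right]
      have hyw : polar Q y (f₁ y) = 0 := q₂ y hyP
      rw [LinearMap.sub_apply, cjE_apply_apply, eichler_apply, eichler_apply, ← a₁, ← a₁, w₁, u₁]
      simp only [map_add, map_sub, map_smul, u₁, w₁, polar_add_right, polar_sub_right,
        polar_smul_right, huu, huw, hyu, hyw, polar_zero_left]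
      module
    obtain ⟨c, hc⟩ := hcl _ (W.sub_mem hW he₁) _ hf₁
    have hc' : ∀ z, polar Q (f₁ u) z • y + polar Q (f₁ y) z • u
        + (polar Q u z • f₁ y + polar Q y z • f₁ u) = c • z := fun z => by
      have := app hc z
      rwa [LinearMap.add_apply, Module.End.mul_apply, Module.End.mul_apply, hd, hd, map_add,
        map_smul, map_smul, ← a₂, ← a₂] at this
    have hc0 : c = 0 := by
      have hr := finrank_range_le_card (R := F) ![f₁ u, f₁ y, u, y]
      rw [Set.finrank, Fintype.card_fin] at hr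
      have : LinearMap.BilinForm.orthogonal (polarBilin Q)
          (Submodule.span F (Set.range ![f₁ u, f₁ y, u, y])) ≠ ⊥ := by
        intro h0
        have := LinearMap.BilinForm.finrank_orthogonal hQ
          (Submodule.span F (Set.range ![f₁ u, f₁ y, u, y]))
        rw [h0, finrank_bot] at this
        omega
      obtain ⟨z, hz, hz0⟩ := (Submodule.ne_bot_iff _).1 this
      have h0 : polar Q (f₁ u) z = 0 := hz _ (Submodule.subset_span ⟨0, rfl⟩)
      have h1 : polar Q (f₁ y) z = 0 := hz _ (Submodule.subset_span ⟨1, rfl⟩)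
      have h3 : polar Q u z = 0 := hz _ (Submodule.subset_span ⟨2, rfl⟩)
      have h4 : polar Q y z = 0 := hz _ (Submodule.subset_span ⟨3, rfl⟩)
      have := hc' z
      rw [h0, h1, h3, h4] at this
      exact (smul_eq_zero.1 (by simpa using this.symm)).resolve_right hz0
    obtain ⟨z, hz, hz'⟩ := exists_perp_polar_eq hQ (W := Submodule.span F {f₁ y, u, y})
      (x := f₁ u) (fun h => by
        obtain ⟨a, b, d, h⟩ := Submodule.mem_span_triple.1 h
        have h3 := congrArg e₁ h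
        rw [map_add, map_add, map_smul, map_smul, map_smul, w₁, w₂, u₁, y₁, smul_zero, smul_zero,
          add_zero, add_zero] at h3
        have h4 := congrArg e₂ h3
        rw [map_smul, y₂, u₂] at h4
        rcases smul_eq_zero.1 h4 with h5 | h5
        · exact hu0 (by rw [← h3, h5, zero_smul])
        · exact hu0 h5) 1
    have := hc' z
    rw [hz', hz (f₁ y) (Submodule.subset_span (by simp)), hz u (Submodule.subset_span (by simp)),
      hz y (Submodule.subset_span (by simp)), hc0] at this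
    have hy0 : y = 0 := by simpa using this
    exact hu0 (by rw [← y₂, hy0, map_zero])

end Core

section Power

variable {F V V₁ : Type*} [Field F] [AddCommGroup V] [Module F V] [AddCommGroup V₁] [Module F V₁]

/-- `a'` is adjoint to `a`. -/
def Adj (B : V → V → F) (a a' : End F V) : Prop := ∀ u v, B (a u) v = B u (a' v)

/-- A space of endomorphisms of one tensor factor with Clifford relations. -/
structure CliffData (B : V₁ → V₁ → F) (W₁ : Submodule F (End F V₁)) (e f : End F V₁) : Prop where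
  cl : ∀ x ∈ W₁, ∀ y ∈ W₁, ∃ c : F, x * y + y * x = c • 1
  e_mem : e ∈ W₁
  f_mem : f ∈ W₁
  ee : e * e = 0
  ff : f * f = 0
  ef : e * f + f * e = 1
  adj_e : Adj B e e
  adj_f : Adj B f f
  inv : ∀ x : V₁ ≃ₗ[F] V₁, (∀ a a', Adj B a a' → Adj B (cjE x a) (cjE x a')) →
    ∀ z ∈ W₁, cjE x z ∈ W₁

theorem cl_span {s : Set (End F V)} (h : ∀ x ∈ s, ∀ y ∈ s, ∃ c : F, x * y + y * x = c • 1) :
    ∀ x ∈ Submodule.span F s, ∀ y ∈ Submodule.span F s, ∃ c : F, x * y + y * x = c • 1 := by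
  intro x hx y hy
  induction hx, hy using Submodule.span_induction₂ with
  | mem_mem x y hx hy => exact h x hx y hy
  | zero_left y _ => exact ⟨0, by simp⟩
  | zero_right x _ => exact ⟨0, by simp⟩
  | add_left x y z _ _ _ h1 h2 =>
    obtain ⟨c, hc⟩ := h1
    obtain ⟨d, hd⟩ := h2
    exact ⟨c + d, by rw [add_smul, ← hc, ← hd]; noncomm_ring⟩
  | add_right x y z _ _ _ h1 h2 =>
    obtain ⟨c, hc⟩ := h1
    obtain ⟨d, hd⟩ := h2
    exact ⟨c + d, by rw [add_smul, ← hc, ← hd]; noncomm_ring⟩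
  | smul_left r x y _ _ h1 =>
    obtain ⟨c, hc⟩ := h1
    exact ⟨r * c, by rw [mul_smul, ← hc, smul_mul_assoc, mul_smul_comm, smul_add]⟩
  | smul_right r x y _ _ h1 =>
    obtain ⟨c, hc⟩ := h1
    exact ⟨r * c, by rw [mul_smul, ← hc, smul_mul_assoc, mul_smul_comm, smul_add]⟩

theorem btw_power [Finite F] [FiniteDimensional F V] {Q : QuadraticForm F V} (h2 : (2 : F) = 0)
    (hQ : (polarBilin Q).Nondegenerate) (h5 : 5 ≤ finrank F V) {t : ℕ} {B : V₁ → V₁ → F}
    (halt : ∀ x, B x x = 0) (hne : ∃ x y, B x y ≠ 0) {φ : Fin t → (End F V₁ →ₐ[F] End F V)}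
    {pv : (Fin t → V₁) → V} {c : F} (hc : c ≠ 0)
    (hpv : ∀ i a xs, φ i a (pv xs) = pv (Function.update xs i (a (xs i))))
    (hspan : Submodule.span F (Set.range pv) = ⊤) (hQ0 : ∀ xs, Q (pv xs) = 0)
    (hB : ∀ xs ys, polar Q (pv xs) (pv ys) = c * ∏ i, B (xs i) (ys i))
    {W₁ : Submodule F (End F V₁)} {e f : End F V₁} (hD : CliffData B W₁ e f) {i j : Fin t}
    (hij : i ≠ j) (h3 : (∃ l, l ≠ i ∧ l ≠ j) ∨ ∀ u, B (e u) u = 0 ∧ B (f u) u = 0)
    {S : Subgroup (V ≃ₗ[F] V)}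
    (hS : ∀ g ∈ S, ∀ i, ∃ j, ∃ x : V₁ ≃ₗ[F] V₁, ∀ a, cjE g (φ i a) = φ j (cjE x a)) :
    ∃ K, S ⊓ Om Q < K ∧ K < Om Q := by
  have hR : ∀ x : End F V, x + x = 0 := fun x => by rw [← two_smul F, h2, zero_smul]
  have hcomm : ∀ {r s : Fin t}, r ≠ s → ∀ a b, φ r a * φ s b = φ s b * φ r a := by
    intro r s hrs a b
    refine LinearMap.ext_on hspan ?_
    rintro _ ⟨xs, rfl⟩
    rw [Module.End.mul_apply, Module.End.mul_apply, hpv, hpv, hpv, hpv,
      Function.update_of_ne hrs, Function.update_of_ne hrs.symm, Function.update_comm hrs]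
  have hupd : ∀ (r : Fin t) (xs ys : Fin t → V₁) (x y : V₁),
      polar Q (pv (Function.update xs r x)) (pv (Function.update ys r y))
        = c * (B x y * ∏ s ∈ Finset.univ.erase r, B (xs s) (ys s)) := by
    intro r xs ys x y
    rw [hB, ← Finset.mul_prod_erase _ _ (Finset.mem_univ r), Function.update_self,
      Function.update_self]
    congr 2
    exact Finset.prod_congr rfl fun s hs => by
      rw [Function.update_of_ne (Finset.ne_of_mem_erase hs),
        Function.update_of_ne (Finset.ne_of_mem_erase hs)]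
  have hadj : ∀ r a a', Adj B a a' → Adj (polar Q) (φ r a) (φ r a') := by
    intro r a a' h u v
    have : (polarBilin Q).compl₁₂ (φ r a) LinearMap.id
        = (polarBilin Q).compl₁₂ LinearMap.id (φ r a') := by
      refine LinearMap.ext_on hspan ?_
      rintro _ ⟨xs, rfl⟩
      refine LinearMap.ext_on hspan ?_
      rintro _ ⟨ys, rfl⟩
      change polar Q (φ r a (pv xs)) (pv ys) = polar Q (pv xs) (φ r a' (pv ys))
      have e1 := hupd r xs ys (a (xs r)) (ys r)
      have e2 := hupd r xs ys (xs r) (a' (ys r))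
      rw [Function.update_eq_self] at e1 e2
      rw [hpv, hpv, e1, e2, h]
    exact LinearMap.congr_fun₂ this u v
  have hadj' : ∀ r a a', Adj (polar Q) (φ r a) (φ r a') → Adj B a a' := by
    intro r a a' h u v
    obtain ⟨x, y, hxy⟩ := hne
    have := h (pv (Function.update (fun _ => x) r u)) (pv (Function.update (fun _ => y) r v))
    rw [hpv, hpv, Function.update_idem, Function.update_idem, Function.update_self,
      Function.update_self, hupd, hupd] at this
    exact mul_right_cancel₀ (Finset.prod_ne_zero_iff.2 fun _ _ => hxy) (mul_left_cancel₀ hc this)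
  have hq : ∀ {r s : Fin t}, r ≠ s → ∀ a, ∀ p ∈ Set.range pv, polar Q p (φ r a p) = 0 := by
    rintro r s hrs a _ ⟨xs, rfl⟩
    rw [hpv, hB, Finset.prod_eq_zero (Finset.mem_univ s), mul_zero]
    rw [Function.update_of_ne hrs.symm, halt]
  have hq' : ∀ a, ((∃ l, l ≠ i ∧ l ≠ j) ∨ ∀ u, B (a u) u = 0) →
      ∀ p ∈ Set.range pv, polar Q (φ i a p) (φ j a p) = 0 := by
    rintro a ha _ ⟨xs, rfl⟩
    rw [hpv, hpv, hB]
    rcases ha with ⟨l, h1, h4⟩ | ha
    · rw [Finset.prod_eq_zero (Finset.mem_univ l), mul_zero]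
      rw [Function.update_of_ne h1, Function.update_of_ne h4, halt]
    · rw [Finset.prod_eq_zero (Finset.mem_univ i), mul_zero]
      rw [Function.update_self, Function.update_of_ne hij, ha]
  have hp : ∀ r a, ∀ p ∈ Set.range pv, φ r a p ∈ Set.range pv := by
    rintro r a _ ⟨xs, rfl⟩
    exact ⟨_, (hpv r a xs).symm⟩
  have hmem : ∀ r, ∀ z ∈ W₁, φ r z ∈ Submodule.span F {x | x = 1 ∨ ∃ r, ∃ z ∈ W₁, x = φ r z} :=
    fun r z hz => Submodule.subset_span (Or.inr ⟨r, z, hz, rfl⟩)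
  refine btw_clifford h2 hQ h5 (W := Submodule.span F {x | x = 1 ∨ ∃ r, ∃ z ∈ W₁, x = φ r z})
    (cl_span ?_) (Submodule.subset_span (Or.inl rfl)) (hmem i e hD.e_mem) (hmem i f hD.f_mem)
    (hmem j e hD.e_mem) (f₂ := φ j f) (by rw [← map_mul, hD.ee, map_zero])
    (by rw [← map_mul, hD.ff, map_zero]) (by rw [← map_mul, hD.ee, map_zero])
    (by rw [← map_mul, ← map_mul, ← map_add, hD.ef, map_one])
    (by rw [← map_mul, ← map_mul, ← map_add, hD.ef, map_one])
    (hcomm hij.symm _ _) (hcomm hij.symm _ _) (hcomm hij.symm _ _) (hadj _ _ _ hD.adj_e)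
    (hadj _ _ _ hD.adj_f) (hadj _ _ _ hD.adj_e) hspan (by rintro _ ⟨xs, rfl⟩; exact hQ0 xs)
    (hp _ _) (hp _ _) (hp _ _) (hp _ _) (hq hij _) (hq hij _) (hq hij.symm _)
    (hq' e (h3.imp id fun h u => (h u).1)) (hq' f (h3.imp id fun h u => (h u).2)) ?_ ?_
  · rintro x (rfl | ⟨r, z, hz, rfl⟩) y hy
    · exact ⟨0, by rw [one_mul, mul_one, hR, zero_smul]⟩
    · rcases hy with rfl | ⟨s, z', hz', rfl⟩
      · exact ⟨0, by rw [one_mul, mul_one, hR, zero_smul]⟩
      · by_cases hrs : r = s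
        · subst hrs
          obtain ⟨d, hd⟩ := hD.cl z hz z' hz'
          exact ⟨d, by rw [← map_mul, ← map_mul, ← map_add, hd, map_smul, map_one]⟩
        · exact ⟨0, by rw [hcomm hrs, hR, zero_smul]⟩
  · intro g hg hg' x hx
    induction hx using Submodule.span_induction with
    | mem x hx =>
      rcases hx with rfl | ⟨r, z, hz, rfl⟩
      · rw [cjE_one]; exact Submodule.subset_span (Or.inl rfl)
      · obtain ⟨s, x, hx⟩ := hS g hg r
        rw [hx]
        refine hmem _ _ (hD.inv x (fun a a' h => hadj' s _ _ fun u v => ?_) z hz)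
        obtain ⟨u, rfl⟩ := g.surjective u
        obtain ⟨v, rfl⟩ := g.surjective v
        rw [← hx, ← hx, cjE_apply_apply, cjE_apply_apply, Om_map_polar hg', Om_map_polar hg',
          hadj r a a' h]
    | zero => rw [cjE_zero]; exact Submodule.zero_mem _
    | add x y _ _ hx hy => rw [cjE_add]; exact Submodule.add_mem _ hx hy
    | smul d x _ hx => rw [cjE_smul]; exact Submodule.smul_mem _ _ hx
  · intro g hg
    obtain ⟨s, x, hx⟩ := hS g hg i
    rw [hx]
    by_cases hs : s = i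
    · exact Or.inr (hcomm (hs ▸ hij) _ _)
    · exact Or.inl (hcomm hs _ _)

/-- The map `x ↦ B(u, x) v`. -/
def rk (B : LinearMap.BilinForm F V₁) (u v : V₁) : End F V₁ := (B u).smulRight v

theorem rk_apply (B : LinearMap.BilinForm F V₁) (u v x : V₁) : rk B u v x = B u x • v := rfl

variable [FiniteDimensional F V₁] {B : LinearMap.BilinForm F V₁}

theorem exists_cliffData_two (h2 : (2 : F) = 0) (hB : B.IsAlt) (hnd : B.Nondegenerate)
    (hd : finrank F V₁ = 2) : ∃ W₁ e f, CliffData (fun x y => B x y) W₁ e f := by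
  obtain ⟨m, b, h1, h3, h4⟩ := Forms.exists_symplectic_basis B hB hnd
  have hm : m = 1 := by
    have := finrank_eq_card_basis b
    simp at this; omega
  subst hm
  have hneg : ∀ x : F, -x = x := fun x => by linear_combination -x * h2
  have hs : ∀ x y, B x y = B y x := fun x y => by rw [← hB.neg_eq, hneg]
  have h5 : B (b (.inr 0)) (b (.inl 0)) = 1 := by simpa using h4 0 0
  have h6 : B (b (.inl 0)) (b (.inr 0)) = 1 := by rw [hs, h5]
  have hext : ∀ {x y : End F V₁}, x (b (.inl 0)) = y (b (.inl 0)) →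
      x (b (.inr 0)) = y (b (.inr 0)) → x = y := by
    intro x y e1 e2
    refine b.ext fun k => ?_
    rcases k with k | k <;> rw [Subsingleton.elim k 0] <;> assumption
  refine ⟨LinearMap.ker (LinearMap.trace F V₁), rk B (b (.inl 0)) (b (.inl 0)),
    rk B (b (.inr 0)) (b (.inr 0)), fun x hx y hy => ?_, ?_, ?_, ?_, ?_, ?_, ?_, ?_, ?_⟩
  · rw [LinearMap.mem_ker, LinearMap.trace_eq_matrix_trace F b] at hx hy
    suffices h : ∃ c : F, LinearMap.toMatrix b b x * LinearMap.toMatrix b b y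
        + LinearMap.toMatrix b b y * LinearMap.toMatrix b b x = c • 1 by
      obtain ⟨c, hc⟩ := h
      refine ⟨c, (LinearMap.toMatrix b b).injective ?_⟩
      rw [map_add, LinearMap.toMatrix_mul, LinearMap.toMatrix_mul, hc, map_smul,
        LinearMap.toMatrix_one]
    generalize LinearMap.toMatrix b b x = X at hx
    generalize LinearMap.toMatrix b b y = Y at hy
    simp only [Matrix.trace, Matrix.diag, Fintype.sum_sum_type, Fin.sum_univ_one] at hx hy
    have ex : X (.inr 0) (.inr 0) = X (.inl 0) (.inl 0) := by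
      linear_combination hx - X (.inl 0) (.inl 0) * h2
    have ey : Y (.inr 0) (.inr 0) = Y (.inl 0) (.inl 0) := by
      linear_combination hy - Y (.inl 0) (.inl 0) * h2
    refine ⟨X (.inl 0) (.inr 0) * Y (.inr 0) (.inl 0) + Y (.inl 0) (.inr 0) * X (.inr 0) (.inl 0),
      ?_⟩
    ext r s
    rcases r with r | r <;> rcases s with s | s <;> rw [Subsingleton.elim r 0,
      Subsingleton.elim s 0] <;> simp [Matrix.mul_apply, Fintype.sum_sum_type, ex, ey] <;>
      ring_nf <;> simp [h2]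
  · rw [LinearMap.mem_ker, rk, LinearMap.trace_smulRight, hB]
  · rw [LinearMap.mem_ker, rk, LinearMap.trace_smulRight, hB]
  · ext x; simp [rk_apply, hB.self_eq_zero]
  · ext x; simp [rk_apply, hB.self_eq_zero]
  · refine hext ?_ ?_ <;> simp [rk_apply, hB.self_eq_zero, h5, h6]
  · intro u v; simp [rk_apply, hs u, mul_comm]
  · intro u v; simp [rk_apply, hs u, mul_comm]
  · intro x _ z hz
    rwa [LinearMap.mem_ker, trace_cjE]

theorem exists_cliffData_four (h2 : (2 : F) = 0) (hB : B.IsAlt) (hnd : B.Nondegenerate)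
    (hd : finrank F V₁ = 4) : ∃ W₁ e f, CliffData (fun x y => B x y) W₁ e f ∧
      ∀ u, B (e u) u = 0 ∧ B (f u) u = 0 := by
  obtain ⟨m, b, h1, h3, h4⟩ := Forms.exists_symplectic_basis B hB hnd
  have hm : m = 2 := by
    have := finrank_eq_card_basis b
    simp at this; omega
  subst hm
  have hneg : ∀ x : F, -x = x := fun x => by linear_combination -x * h2
  have hs : ∀ x y, B x y = B y x := fun x y => by rw [← hB.neg_eq, hneg]
  have h5 : ∀ i j, B (b (.inl i)) (b (.inr j)) = if j = i then 1 else 0 := fun i j => by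
    rw [hs, h4]
  let W₁ : Submodule F (End F V₁) :=
    { carrier := {z | ∃ y y', LinearMap.trace F V₁ y = 0 ∧ Adj (fun x y => B x y) y y' ∧
        z = y + y'}
      add_mem' := by
        rintro _ _ ⟨y, y', e1, e2, rfl⟩ ⟨z, z', e3, e4, rfl⟩
        refine ⟨y + z, y' + z', by rw [map_add, e1, e3, add_zero], fun u v => ?_, by abel⟩
        have := e2 u v
        have := e4 u v
        simp_all
      zero_mem' := ⟨0, 0, map_zero _, fun u v => by simp, by simp⟩
      smul_mem' := by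
        rintro c _ ⟨y, y', e1, e2, rfl⟩
        refine ⟨c • y, c • y', by rw [map_smul, e1, smul_zero], fun u v => ?_, by rw [smul_add]⟩
        have := e2 u v
        simp_all }
  have hw : ∀ u v, B u v = 0 → rk B u v + rk B v u ∈ W₁ := fun u v h =>
    ⟨_, _, by rw [rk, LinearMap.trace_smulRight, h], fun x y => by
      simp [rk_apply, hs x, mul_comm], rfl⟩
  have hrepr : ∀ x, (∀ i, b.repr x (.inl i) = B (b (.inr i)) x) ∧
      ∀ i, b.repr x (.inr i) = B (b (.inl i)) x := by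
    intro x
    constructor <;> intro i
    · refine LinearMap.congr_fun (f := b.coord (.inl i)) (b.ext fun k => ?_) x
      rcases k with k | k <;> simp [h3, h4, Finsupp.single_apply, eq_comm]
    · refine LinearMap.congr_fun (f := b.coord (.inr i)) (b.ext fun k => ?_) x
      rcases k with k | k <;> simp [h1, h5, Finsupp.single_apply]
  have hshape : ∀ z ∈ W₁, ∃ a₁ a₂ a₃ a₄ a₅ : F, LinearMap.toMatrix b b z =
      Matrix.fromBlocks !![a₁, a₂; a₃, a₁] !![0, a₄; a₄, 0] !![0, a₅; a₅, 0] !![a₁, a₃; a₂, a₁] := by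
    rintro _ ⟨y, y', e1, e2, rfl⟩
    have e3 : ∀ u v, B u (y' v) = B v (y u) := fun u v => (e2 u v).symm.trans (hs _ _)
    rw [LinearMap.trace_eq_matrix_trace F b] at e1
    simp only [Matrix.trace, Matrix.diag, Fintype.sum_sum_type, Fin.sum_univ_two,
      LinearMap.toMatrix_apply, (hrepr _).1, (hrepr _).2] at e1
    refine ⟨LinearMap.toMatrix b b (y + y') (.inl 0) (.inl 0),
      LinearMap.toMatrix b b (y + y') (.inl 0) (.inl 1),
      LinearMap.toMatrix b b (y + y') (.inl 1) (.inl 0),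
      LinearMap.toMatrix b b (y + y') (.inl 0) (.inr 1),
      LinearMap.toMatrix b b (y + y') (.inr 0) (.inl 1), ?_⟩
    have e4 : B (b (.inr 1)) (y (b (.inl 1))) = B (b (.inr 0)) (y (b (.inl 0)))
        + B (b (.inl 0)) (y (b (.inr 0))) + B (b (.inl 1)) (y (b (.inr 1))) := by
      linear_combination e1 - (B (b (.inr 0)) (y (b (.inl 0)))
        + B (b (.inl 0)) (y (b (.inr 0))) + B (b (.inl 1)) (y (b (.inr 1)))) * h2
    ext r s
    rcases r with r | r <;> rcases s with s | s <;> fin_cases r <;> fin_cases s <;>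
      simp [LinearMap.toMatrix_apply, (hrepr _).1, (hrepr _).2, e3, e4] <;>
      ring_nf <;> simp [h2]
  refine ⟨W₁, rk B (b (.inl 0)) (b (.inl 1)) + rk B (b (.inl 1)) (b (.inl 0)),
    rk B (b (.inr 0)) (b (.inr 1)) + rk B (b (.inr 1)) (b (.inr 0)),
    ⟨fun x hx y hy => ?_, hw _ _ (h1 _ _), hw _ _ (h3 _ _), ?_, ?_, ?_, ?_, ?_, ?_⟩, ?_⟩
  · obtain ⟨a₁, a₂, a₃, a₄, a₅, hx⟩ := hshape x hx
    obtain ⟨b₁, b₂, b₃, b₄, b₅, hy⟩ := hshape y hy
    refine ⟨a₂ * b₃ + a₃ * b₂ + a₄ * b₅ + a₅ * b₄, (LinearMap.toMatrix b b).injective ?_⟩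
    rw [map_add, LinearMap.toMatrix_mul, LinearMap.toMatrix_mul, hx, hy, map_smul,
      LinearMap.toMatrix_one]
    ext r s
    rcases r with r | r <;> rcases s with s | s <;> fin_cases r <;> fin_cases s <;>
      simp [Matrix.mul_apply, Fintype.sum_sum_type] <;> ring_nf <;> simp [h2]
  · ext x; simp [rk_apply, h1]
  · ext x; simp [rk_apply, h3]
  · refine b.ext fun k => ?_
    rcases k with k | k <;> fin_cases k <;> simp [rk_apply, h1, h3, h4, h5]
  · intro u v; simp [rk_apply, hs u, mul_comm, add_comm]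
  · intro u v; simp [rk_apply, hs u, mul_comm, add_comm]
  · rintro x hx _ ⟨y, y', e1, e2, rfl⟩
    exact ⟨_, _, by rw [trace_cjE, e1], hx _ _ e2, cjE_add _ _ _⟩
  · intro u
    constructor
    · simp only [LinearMap.add_apply, rk_apply, map_add, map_smul, LinearMap.smul_apply,
        smul_eq_mul]
      linear_combination (B (b (.inl 0)) u * B (b (.inl 1)) u) * h2
    · simp only [LinearMap.add_apply, rk_apply, map_add, map_smul, LinearMap.smul_apply,
        smul_eq_mul]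
      linear_combination (B (b (.inr 0)) u * B (b (.inr 1)) u) * h2

end Power

section MatGL

open Matrix Asch

variable {F : Type*} [Field F] {ι : Type} [Fintype ι] [DecidableEq ι] {k t : ℕ}

theorem pure_mulVec_prod (a : Fin t → Matrix (Fin k) (Fin k) F) (xs : Fin t → Fin k → F) :
    Asch.pure a *ᵥ (fun p => ∏ i, xs i (p i)) = fun p => ∏ i, (a i *ᵥ xs i) (p i) := by
  funext p
  simp only [mulVec, dotProduct, pure_apply, ← Finset.prod_mul_distrib]
  rw [Finset.prod_univ_sum, Fintype.piFinset_univ]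

theorem wreath_cj_slot {g : GL (Fin t → Fin k) F} (hg : g ∈ tensorWreathStandard k t F) :
    ∀ i, ∃ j, ∃ x : GL (Fin k) F, ∀ a, cj g (slot i a) = slot j (cj x a) := by
  have h1 : ∀ gs : Fin t → GL (Fin k) F, ∀ i, ∃ j, ∃ x : GL (Fin k) F, ∀ a,
      cj (pureU gs) (slot i a) = slot j (cj x a) := fun gs i => ⟨i, gs i, cj_pureU_slot gs i⟩
  have h2 : ∀ τ : Equiv.Perm (Fin t), ∀ i, ∃ j, ∃ x : GL (Fin k) F, ∀ a,
      cj (permU k F τ) (slot i a) = slot j (cj x a) := fun τ i =>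
    ⟨τ i, 1, fun a => by rw [cj_permU_slot, cj_one]⟩
  induction hg using Subgroup.closure_induction'' with
  | mem g hg =>
    rcases hg with ⟨gs, hg⟩ | ⟨τ, hg⟩
    · obtain rfl : g = pureU gs := Units.ext (Matrix.ext hg)
      exact h1 gs
    · obtain rfl : g = permU k F τ := Units.ext (Matrix.ext hg)
      exact h2 τ
  | inv_mem g hg =>
    rcases hg with ⟨gs, hg⟩ | ⟨τ, hg⟩
    · obtain rfl : g = pureU gs := Units.ext (Matrix.ext hg)
      exact h1 fun i => (gs i)⁻¹
    · obtain rfl : g = permU k F τ := Units.ext (Matrix.ext hg)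
      exact h2 τ.symm
  | one => exact fun i => ⟨i, 1, fun a => by rw [cj_one, cj_one]⟩
  | mul g h _ _ hg hh =>
    intro i
    obtain ⟨j, x, hx⟩ := hh i
    obtain ⟨l, y, hy⟩ := hg j
    exact ⟨l, y * x, fun a => by rw [cj_mul, hx, hy, cj_mul]⟩

theorem cjE_toEquiv (g : GL ι F) (a : Matrix ι ι F) :
    cjE (toEquiv g) (Matrix.toLinAlgEquiv' a) = Matrix.toLinAlgEquiv' (cj g a) := by
  refine LinearMap.ext fun v => ?_
  obtain ⟨v, rfl⟩ := (toEquiv g).surjective v
  rw [cjE_apply_apply, Matrix.toLinAlgEquiv'_apply, Matrix.toLinAlgEquiv'_apply, toEquiv_apply,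
    toEquiv_apply, cj_mulVec]

/-- Tensor powers of symplectic spaces of dimension two or four in characteristic two. -/
theorem omega_power_symp_not_maximal [Fintype F] (hchar : ¬ Odd (Fintype.card F))
    {Q : (ι → F) → F} (hQ : IsNondegenerateQuadraticForm Q)
    (hkt : (k = 2 ∧ 3 ≤ t) ∨ (k = 4 ∧ 2 ≤ t)) {e : ι ≃ (Fin t → Fin k)} {P : GL ι F}
    {f₁ : (Fin k → F) → (Fin k → F) → F} (hf₁ : IsSymplecticForm f₁)
    (hT : IsTensorPowerFormStructure id (polar Q) f₁ e P)
    (hpure : ∀ xs : Fin t → (Fin k → F), Q ((P : Matrix ι ι F) *ᵥ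
      ((fun a : Fin t → Fin k => ∏ i, xs i (a i)) ∘ e)) = 0) :
    ∃ K, tensorWreathSubgroup k t e P ⊓ omegaGL Q < K ∧ K < omegaGL Q := by
  have h2 := two_eq_zero_of_even hchar
  have hcard : Fintype.card ι = k ^ t := by simpa using Fintype.card_congr e
  have ht : 2 ≤ t := by omega
  have hk : 2 ≤ k := by omega
  have h5 : 5 ≤ Fintype.card ι := by
    rw [hcard]
    rcases hkt with ⟨rfl, h⟩ | ⟨rfl, h⟩
    · exact le_trans (by norm_num) (Nat.pow_le_pow_right (by norm_num) h)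
    · exact le_trans (by norm_num) (Nat.pow_le_pow_right (by norm_num) h)
  let B : LinearMap.BilinForm F (Fin k → F) := LinearMap.mk₂ F f₁ hf₁.bilinear.add_left
    hf₁.bilinear.smul_left hf₁.bilinear.add_right fun c x y => hf₁.bilinear.smul_right c x y
  have hB : B.IsAlt := hf₁.alternating
  have hnd : B.Nondegenerate := by
    constructor <;> intro x hx <;> by_contra h0
    · obtain ⟨y, hy⟩ := (hf₁.nondegenerate x h0).2
      exact hy (hx y)
    · obtain ⟨y, hy⟩ := (hf₁.nondegenerate x h0).1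
      exact hy (hx y)
  obtain ⟨W₁, a, b, hD, h3⟩ : ∃ W₁ a b, CliffData f₁ W₁ a b ∧
      ((∃ l : Fin t, l ≠ ⟨0, by omega⟩ ∧ l ≠ ⟨1, by omega⟩) ∨
        ∀ u, f₁ (a u) u = 0 ∧ f₁ (b u) u = 0) := by
    rcases hkt with ⟨rfl, h⟩ | ⟨rfl, h⟩
    · obtain ⟨W₁, a, b, hD⟩ := exists_cliffData_two h2 hB hnd (by simp)
      exact ⟨W₁, a, b, hD, Or.inl ⟨⟨2, by omega⟩, by simp, by simp⟩⟩
    · obtain ⟨W₁, a, b, hD, h3⟩ := exists_cliffData_four h2 hB hnd (by simp)
      exact ⟨W₁, a, b, hD, Or.inr h3⟩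
  obtain ⟨c, hc, hT⟩ := hT
  let φ : Fin t → (End F (Fin k → F) →ₐ[F] End F (ι → F)) := fun i =>
    (Matrix.toLinAlgEquiv' (R := F) (n := ι)).toAlgHom.comp ((coord e P).toAlgHom.comp
      ((slotHom i).comp (Matrix.toLinAlgEquiv' (R := F) (n := Fin k)).symm.toAlgHom))
  have hφ : ∀ i a, φ i (Matrix.toLinAlgEquiv' a) = Matrix.toLinAlgEquiv' (coord e P (slot i a)) :=
    fun i a => by simp [φ, slotHom_apply]
  refine btw_gl (eq_comap_map _) (omegaGL_eq_Om (toQF hQ))
    (btw_power h2 (toQF_nd hQ) (by simpa using h5) hf₁.alternating ?_ (φ := φ)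
      (pv := fun xs => (coordV e P).symm fun p => ∏ i, xs i (p i)) hc ?_ ?_ hpure ?_ hD
      (by simp) h3 ?_)
  · obtain ⟨y, hy⟩ := (hf₁.nondegenerate (fun _ => 1)
      (fun h => one_ne_zero (congrFun h ⟨0, by omega⟩))).2
    exact ⟨_, _, hy⟩
  · intro i a xs
    obtain ⟨a, rfl⟩ := Matrix.toLinAlgEquiv'.surjective a
    rw [hφ, Matrix.toLinAlgEquiv'_apply, Matrix.toLinAlgEquiv'_apply, coord_mulVec_symm, slot,
      pure_mulVec_prod]
    congr 1
    funext p
    refine Finset.prod_congr rfl fun j _ => ?_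
    by_cases hj : j = i
    · subst hj; simp
    · simp [hj]
  · rw [eq_top_iff]
    intro v _
    obtain ⟨v, rfl⟩ := (coordV e P).symm.surjective v
    rw [pi_eq_sum_univ' v, map_sum]
    refine Submodule.sum_mem _ fun p _ => ?_
    rw [map_smul]
    refine Submodule.smul_mem _ _ (Submodule.subset_span ⟨fun i => Pi.single (p i) 1, ?_⟩)
    refine congrArg (coordV e P).symm (funext fun r => ?_)
    simp only [Pi.single_apply, Finset.prod_boole, Finset.mem_univ, true_imp_iff, funext_iff]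
  · intro xs ys
    refine (hT _ _).trans ?_
    congr 1
    simp only [(isSesq0_of_bilin hf₁.bilinear).eq_gform (xs _), gform_eq_sum, id,
      RingHom.id_apply, ← Finset.prod_mul_distrib]
    rw [Finset.prod_univ_sum, Fintype.piFinset_univ]
    refine Finset.sum_congr rfl fun p _ => ?_
    rw [Finset.prod_univ_sum, Fintype.piFinset_univ]
  · rintro _ ⟨g, hg, rfl⟩ i
    obtain ⟨j, x, hx⟩ := wreath_cj_slot (mem_tensorWreathSubgroup.1 hg) i
    refine ⟨j, toEquiv x, fun a => ?_⟩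
    obtain ⟨a, rfl⟩ := Matrix.toLinAlgEquiv'.surjective a
    rw [cjE_toEquiv, hφ, hφ, ← hx, coord_cj, MulEquiv.apply_symm_apply]
    exact cjE_toEquiv g _

end MatGL

end CfsgLib.NonMax
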