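import Mathlib
import Cfsg.Agent.Lib.NonMax.Tens

/-!
Non-maximal geometric subgroups of `SU_n(2)`: decompositions into non-degenerate planes and tensor
decompositions with a two-dimensional factor.
-/

set_option autoImplicit false

namespace CfsgLib.NonMax

open CfsgLib.ClMax Module Cfsg Cfsg.Geo
open scoped MatrixGroups

section Abstract

variable {F V : Type*} [Field F] [AddCommGroup V] [Module F V]

/-- A Hermitian form over the field with four elements. -/
structure Herm4 (h : V → V → F) : Prop where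
  two : (2 : F) = 0
  cube : ∀ x : F, x ≠ 0 → x ^ 3 = 1
  gen : ∃ ω : F, ω + ω ^ 2 ≠ 0
  add_left : ∀ x y v, h (x + y) v = h x v + h y v
  smul_left : ∀ (c : F) (x v : V), h (c • x) v = c * h x v
  herm : ∀ v w, h v w = h w v ^ 2

variable {h : V → V → F}

theorem Herm4.add_right (H : Herm4 h) (v x y : V) : h v (x + y) = h v x + h v y := by
  rw [H.herm, H.add_left, H.herm v x, H.herm v y]
  linear_combination (h x v * h y v) * H.two

theorem Herm4.smul_right (H : Herm4 h) (c : F) (v x : V) : h v (c • x) = c ^ 2 * h v x := by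
  rw [H.herm, H.smul_left, H.herm v x, mul_pow]

theorem Herm4.symm_zero (H : Herm4 h) {v w : V} (h0 : h v w = 0) : h w v = 0 := by
  rw [H.herm, h0]; simp

theorem Herm4.self_eq_one (H : Herm4 h) {v : V} (h0 : h v v ≠ 0) : h v v = 1 :=
  mul_left_cancel₀ h0 (by rw [mul_one, ← pow_two, ← H.herm])

theorem Herm4.add_self (H : Herm4 h) (v : V) : v + v = 0 := by
  rw [← two_smul F, H.two, zero_smul]

/-- The functional `x ↦ h x v`. -/
def Herm4.lin (H : Herm4 h) (v : V) : Dual F V where
  toFun x := h x v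
  map_add' x y := H.add_left x y v
  map_smul' c x := H.smul_left c x v

theorem Herm4.lin_apply (H : Herm4 h) (v x : V) : H.lin v x = h x v := rfl

theorem Herm4.exists_nonisotropic (H : Herm4 h) {W : Submodule F V}
    (hW : ∀ w ∈ W, (∀ x ∈ W, h x w = 0) → w = 0) (h0 : W ≠ ⊥) : ∃ a ∈ W, h a a = 1 := by
  by_contra hc
  push Not at hc
  have hz : ∀ a ∈ W, h a a = 0 := fun a ha => by
    by_contra h1
    exact hc a ha (H.self_eq_one h1)
  have key : ∀ x ∈ W, ∀ y ∈ W, h x y + h x y ^ 2 = 0 := fun x hx y hy => by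
    have := hz _ (W.add_mem hx hy)
    rw [H.add_left, H.add_right, H.add_right, hz x hx, hz y hy, H.herm y x] at this
    linear_combination this
  obtain ⟨w, hw, hw0⟩ := (Submodule.ne_bot_iff _).1 h0
  obtain ⟨ω, hω⟩ := H.gen
  refine hw0 (hW w hw fun x hx => ?_)
  have h1 := key x hx w hw
  have h2 := key _ (W.smul_mem ω hx) w hw
  rw [H.smul_left] at h2
  apply mul_left_cancel₀ hω
  linear_combination h2 - ω ^ 2 * h1 + (ω ^ 2 * h x w) * H.two

variable [FiniteDimensional F V]

theorem exists_ne_zero_ker {W : Submodule F V} (h2 : 2 ≤ finrank F W) (φ : Dual F V) :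
    W ⊓ LinearMap.ker φ ≠ ⊥ := by
  have h1 := Submodule.finrank_sup_add_finrank_inf_eq W (LinearMap.ker φ)
  have h3 := LinearMap.finrank_range_add_finrank_ker φ
  have h4 : finrank F (LinearMap.range φ) ≤ 1 := by
    simpa using Submodule.finrank_le (LinearMap.range φ)
  have h5 := Submodule.finrank_le (W ⊔ LinearMap.ker φ)
  intro h0
  rw [h0, finrank_bot] at h1
  omega

theorem Herm4.exists_orth (H : Herm4 h) {W : Submodule F V}
    (hW : ∀ w ∈ W, (∀ x ∈ W, h x w = 0) → w = 0) (h2 : 2 ≤ finrank F W) {a : V} (ha : a ∈ W)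
    (haa : h a a = 1) : ∃ a' ∈ W, h a' a' = 1 ∧ h a' a = 0 := by
  obtain ⟨a', ha', h1⟩ := H.exists_nonisotropic (W := W ⊓ LinearMap.ker (H.lin a))
    (fun w hw hw' => hW w hw.1 fun x hx => by
      have h3 := hw' (x + h x a • a) ⟨W.add_mem hx (W.smul_mem _ ha), by
        rw [SetLike.mem_coe, LinearMap.mem_ker, H.lin_apply, H.add_left, H.smul_left, haa]
        linear_combination h x a * H.two⟩
      rwa [H.add_left, H.smul_left, H.symm_zero (show h w a = 0 from hw.2), mul_zero,
        add_zero] at h3) (exists_ne_zero_ker h2 _)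
  exact ⟨a', ha'.1, h1, ha'.2⟩

theorem Herm4.exists_pair (H : Herm4 h) {W : Submodule F V}
    (hW : ∀ w ∈ W, (∀ x ∈ W, h x w = 0) → w = 0) (h2 : 2 ≤ finrank F W) :
    ∃ a ∈ W, ∃ a' ∈ W, h a a = 1 ∧ h a' a' = 1 ∧ h a' a = 0 ∧ h a a' = 0 := by
  obtain ⟨a, ha, haa⟩ := H.exists_nonisotropic hW (by
    intro h0
    rw [h0, finrank_bot] at h2
    omega)
  obtain ⟨a', ha', h1, h3⟩ := H.exists_orth hW h2 ha haa
  exact ⟨a, ha, a', ha', haa, h1, h3, H.symm_zero h3⟩

/-- In a non-degenerate plane two non-isotropic vectors are proportional or orthogonal. -/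
theorem Herm4.frame (H : Herm4 h) {W : Submodule F V}
    (hW : ∀ w ∈ W, (∀ x ∈ W, h x w = 0) → w = 0) (hdim : finrank F W = 2) {v w : V} (hv : v ∈ W)
    (hw : w ∈ W) (hvv : h v v = 1) (hww : h w w ≠ 0) : h w v = 0 ∨ w = h w v • v := by
  by_cases h0 : h w v = 0
  · exact Or.inl h0
  right
  have hzW : w + h w v • v ∈ W := W.add_mem hw (W.smul_mem _ hv)
  have hzv : h (w + h w v • v) v = 0 := by
    rw [H.add_left, H.smul_left, hvv]; linear_combination h w v * H.two
  have hzz : h (w + h w v • v) (w + h w v • v) = 0 := by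
    rw [H.add_right, H.smul_right, hzv, H.add_left, H.smul_left, H.self_eq_one hww, H.herm v w]
    linear_combination H.cube _ h0 + H.two
  suffices hz : w + h w v • v = 0 by
    rw [← add_left_inj (h w v • v), hz, H.add_self]
  generalize w + h w v • v = z at hzW hzv hzz
  by_contra hz0
  have hli : LinearIndependent F ![v, z] := by
    rw [LinearIndependent.pair_iff]
    intro s r hsr
    have h1 : h (s • v + r • z) v = h ((0 : F) • v) v := by rw [hsr, zero_smul]
    rw [H.add_left, H.smul_left, H.smul_left, H.smul_left, hvv, hzv] at h1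
    have hs : s = 0 := by simpa using h1
    rw [hs, zero_smul, zero_add] at hsr
    exact ⟨hs, (smul_eq_zero.1 hsr).resolve_right hz0⟩
  have hsp : Submodule.span F {v, z} = W := by
    apply Submodule.eq_of_le_of_finrank_eq
    · rw [Submodule.span_le]
      rintro x (rfl | rfl)
      exacts [hv, hzW]
    · have := finrank_span_eq_card hli
      rw [Matrix.range_cons, Matrix.range_cons, Matrix.range_empty, Set.union_empty,
        Set.singleton_union] at this
      rw [this, hdim]; simp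
  refine hz0 (hW z hzW fun x hx => ?_)
  rw [← hsp, Submodule.mem_span_pair] at hx
  obtain ⟨s, r, rfl⟩ := hx
  rw [H.add_left, H.smul_left, H.smul_left, H.symm_zero hzv, hzz]; simp

/-- The unitary transvection along an isotropic vector. -/
theorem Herm4.exists_tv (H : Herm4 h) {u : V} (hu : h u u = 0) :
    ∃ g ∈ isoV h ⊓ SLV F V, ∀ z, g z = z + h z u • u := by
  obtain ⟨g, hg, hg'⟩ := hasTv_SLV (F := F) (v := u) (φ := H.lin u) hu
  refine ⟨g, ⟨fun x y => ?_, hg⟩, hg'⟩
  rw [hg', hg', H.lin_apply, H.lin_apply, H.add_left, H.add_right, H.add_right, H.smul_left,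
    H.smul_left, H.smul_right, H.smul_right, hu, H.herm u y]
  linear_combination (h y u ^ 2 * h x u) * H.two

theorem btw_su_dec [Finite F] (H : Herm4 h) {t : ℕ} {D : Fin t → Submodule F V} (hD : ODec h D)
    {i j : Fin t} (hij : i ≠ j) (hi : finrank F (D i) = 2) (hj : finrank F (D j) = 2) :
    ∃ K, decompV D ⊓ (isoV h ⊓ SLV F V) < K ∧ K < isoV h ⊓ SLV F V := by
  have : Finite V := Module.finite_of_finite F
  obtain ⟨a, ha, a', ha', haa, ha'a', ha'a, haa'⟩ := H.exists_pair (hD.nd i) hi.ge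
  obtain ⟨b, hb, b', hb', hbb, hb'b', hb'b, hbb'⟩ := H.exists_pair (hD.nd j) hj.ge
  have o := hD.orth i j hij
  have o' := hD.orth j i hij.symm
  have hne : ∀ {v : V}, h v v = 1 → v ≠ 0 := by
    rintro v hv rfl
    have := H.smul_left 0 0 0
    rw [zero_smul, hv, zero_mul] at this
    exact one_ne_zero this
  refine btw_of_set (X := {v | (∃ l, v ∈ D l) ∧ h v v ≠ 0}) (Set.toFinite _)
    (fun g hg hg' v hv => ⟨decompV_map hg hv.1, by rw [LinearEquiv.smul_def, hg'.1]; exact hv.2⟩)
    ?_ ?_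
  · obtain ⟨g, hg, hg'⟩ := H.exists_tv (u := a + b) (by
      rw [H.add_left, H.add_right, H.add_right, haa, hbb, o a ha b hb, o' b hb a ha]
      linear_combination H.two)
    have e1 : g a = b := by
      rw [hg', H.add_right, haa, o a ha b hb, add_zero, one_smul, ← add_assoc, H.add_self, zero_add]
    have e2 : g b = a := by
      rw [hg', H.add_right, hbb, o' b hb a ha, zero_add, one_smul, add_left_comm, H.add_self,
        add_zero]
    have e3 : ∀ z, h z a = 0 → h z b = 0 → g z = z := fun z h1 h2 => by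
      rw [hg', H.add_right, h1, h2]; simp
    refine ⟨g, hg, hD.not_mem_decompV ha' (hne ha'a') ?_ ha ?_, fun v hv => ⟨?_, ?_⟩⟩
    · rwa [e3 a' ha'a (o a' ha' b hb)]
    · rw [e1]; exact fun h' => hij (hD.eq_of_mem (hne hbb) h' hb)
    · obtain ⟨⟨l, hl⟩, hv⟩ := hv
      rw [LinearEquiv.smul_def]
      by_cases hli : l = i
      · subst hli
        rcases H.frame (hD.nd l) hi ha hl haa hv with h1 | h1
        · exact ⟨l, by rwa [e3 v h1 (o v hl b hb)]⟩
        · exact ⟨j, by rw [h1, map_smul, e1]; exact (D j).smul_mem _ hb⟩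
      · by_cases hlj : l = j
        · subst hlj
          rcases H.frame (hD.nd l) hj hb hl hbb hv with h1 | h1
          · exact ⟨l, by rwa [e3 v (o' v hl a ha) h1]⟩
          · exact ⟨i, by rw [h1, map_smul, e2]; exact (D i).smul_mem _ ha⟩
        · exact ⟨l, by rwa [e3 v (hD.orth l i hli v hl a ha) (hD.orth l j hlj v hl b hb)]⟩
    · rw [LinearEquiv.smul_def, hg.1]; exact hv.2
  · obtain ⟨g, hg, hg'⟩ := H.exists_tv (u := a + a' + (b + b')) (by
      simp only [H.add_left, H.add_right, haa, ha'a', ha'a, haa', hbb, hb'b', hb'b, hbb',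
        o a ha b hb, o a ha b' hb', o a' ha' b hb, o a' ha' b' hb', o' b hb a ha, o' b hb a' ha',
        o' b' hb' a ha, o' b' hb' a' ha']
      linear_combination 2 * H.two)
    refine ⟨g, hg, a, ⟨⟨i, ha⟩, by rw [haa]; exact one_ne_zero⟩, fun ⟨⟨l, hl⟩, _⟩ => ?_⟩
    rw [LinearEquiv.smul_def, hg'] at hl
    simp only [H.add_right, haa, haa', o a ha b hb, o a ha b' hb', add_zero, one_smul] at hl
    by_cases hli : i = l
    · subst hli
      have := o' b hb _ hl
      simp [H.add_right, hbb, hbb', o' b hb a ha, o' b hb a' ha'] at this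
    · have := hD.orth i l hli a' ha' _ hl
      simp [H.add_right, ha'a, ha'a', o a' ha' b hb, o a' ha' b' hb'] at this

theorem btw_su_tensor [Finite F] (H : Herm4 h) {V₁ V₂ : Type*} [AddCommGroup V₁] [Module F V₁]
    [AddCommGroup V₂] [Module F V₂] [FiniteDimensional F V₁] [FiniteDimensional F V₂]
    {h₁ : V₁ → V₁ → F} {h₂ : V₂ → V₂ → F} (H₁ : Herm4 h₁) (H₂ : Herm4 h₂)
    (n₁ : ∀ w, (∀ x, h₁ x w = 0) → w = 0) (n₂ : ∀ w, (∀ x, h₂ x w = 0) → w = 0)
    (d₁ : finrank F V₁ = 2) (d₂ : 2 ≤ finrank F V₂) {τ : V₁ →ₗ[F] V₂ →ₗ[F] V} {c : F}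
    (hc : c ≠ 0) (hτ : ∀ x y x' y', h (τ x y) (τ x' y') = c * h₁ x x' * h₂ y y')
    {S : Subgroup (V ≃ₗ[F] V)} (hS : ActsPure τ S) :
    ∃ K, S ⊓ (isoV h ⊓ SLV F V) < K ∧ K < isoV h ⊓ SLV F V := by
  have : Finite V := Module.finite_of_finite F
  have n₁' : ∀ w ∈ (⊤ : Submodule F V₁), (∀ x ∈ (⊤ : Submodule F V₁), h₁ x w = 0) → w = 0 :=
    fun w _ hw => n₁ w fun x => hw x trivial
  obtain ⟨a, -, a', -, haa, ha'a', ha'a, haa'⟩ :=
    H₁.exists_pair n₁' (by rw [finrank_top, d₁])
  obtain ⟨v, -, v', -, hvv, hv'v', hv'v, hvv'⟩ := H₂.exists_pair (W := ⊤)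
    (fun w _ hw => n₂ w fun x => hw x trivial) (by rwa [finrank_top])
  refine btw_of_set (X := {z | ∃ x y, h₁ x x ≠ 0 ∧ z = τ x y}) (Set.toFinite _) ?_ ?_ ?_
  · rintro g hg hg' _ ⟨x, y, hx, rfl⟩
    obtain ⟨α, β, hab⟩ := hS g hg
    obtain ⟨l, hl, hl'⟩ := exists_multiplier hc hτ ⟨a, a, by rw [haa]; exact one_ne_zero⟩
      ⟨v, v, by rw [hvv]; exact one_ne_zero⟩ hg'.1 hab
    exact ⟨α x, β y, by rw [hl']; exact mul_ne_zero hl hx, hab x y⟩
  · obtain ⟨g, hg, hg'⟩ := H.exists_tv (u := τ a (v + v')) (by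
      rw [hτ, H₂.add_left, H₂.add_right, H₂.add_right, hvv, hv'v', hv'v, hvv']
      linear_combination (c * h₁ a a) * H.two)
    refine ⟨g, hg, fun hgS => ?_, ?_⟩
    · obtain ⟨α, β, hab⟩ := hS g hgS
      have h1 := hab (a + a') v
      rw [hg'] at h1
      have h3 := minor_eq_zero hτ ⟨_, _, h1⟩ a a' v' v (by
        simp [H.add_left, H.smul_left, hτ, hvv', haa'])
      simp [H.add_left, H.smul_left, H.add_right, hτ, hvv', haa', haa, hvv, hv'v, ha'a, ha'a',
        hv'v', hc] at h3
    · rintro _ ⟨x, y, hx, rfl⟩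
      rw [LinearEquiv.smul_def, hg']
      rcases H₁.frame n₁' (by rw [finrank_top, d₁]) trivial trivial haa hx with h1 | h1
      · exact ⟨x, y, hx, by rw [hτ, h1]; simp⟩
      · have e : τ x y = τ a (h₁ x a • y) := by
          conv_lhs => rw [h1]
          rw [map_smul, LinearMap.smul_apply, map_smul]
        rw [e, ← map_smul, ← map_add]
        exact ⟨a, _, by rw [haa]; exact one_ne_zero, rfl⟩
  · obtain ⟨g, hg, hg'⟩ := H.exists_tv (u := τ (a + a') v) (by
      rw [hτ, H₁.add_left, H₁.add_right, H₁.add_right, haa, ha'a', ha'a, haa']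
      linear_combination (c * h₂ v v) * H.two)
    refine ⟨g, hg, τ a (v + v'), ⟨a, _, by rw [haa]; exact one_ne_zero, rfl⟩, ?_⟩
    rintro ⟨x, y, -, h1⟩
    rw [LinearEquiv.smul_def, hg'] at h1
    have h3 := minor_eq_zero hτ ⟨_, _, h1⟩ a a' v' v (by
      simp [H.add_left, H.smul_left, hτ, hvv', haa'])
    simp [H.add_left, H.smul_left, H.add_right, hτ, hvv', haa', haa, hvv, hv'v, ha'a',
      hv'v', hc] at h3

end Abstract

section MatGL

open Matrix Asch

variable {F : Type*} [Field F] [Fintype F]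

theorem herm4_of (hF : Fintype.card F = 4) {ι : Type} {f : (ι → F) → (ι → F) → F}
    (h1 : ∀ x y v, f (x + y) v = f x v + f y v) (h2 : ∀ (c : F) x v, f (c • x) v = c * f x v)
    (h3 : ∀ v w, f v w = f w v ^ 2) : Herm4 f where
  two := two_eq_zero_of_even (by rw [hF]; decide)
  cube x hx := by
    have := FiniteField.pow_card_sub_one_eq_one x hx
    rwa [hF] at this
  gen := by
    classical
    have h2 : (2 : F) = 0 := two_eq_zero_of_even (by rw [hF]; decide)
    by_contra hc
    push Not at hc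
    have : (Finset.univ : Finset F) ⊆ {0, 1} := fun x _ => by
      by_cases hx : x = 0
      · simp [hx]
      · have : x = 1 := mul_left_cancel₀ hx (by linear_combination hc x - x * h2)
        simp [this]
    have h4 := (Finset.card_le_card this).trans (Finset.card_le_two)
    rw [Finset.card_univ] at h4
    omega
  add_left := h1
  smul_left := h2
  herm := h3

theorem herm4_hermForm (hF : Fintype.card F = 4) (n : ℕ) : Herm4 (hermForm n F 2) := by
  have h2 : (2 : F) = 0 := two_eq_zero_of_even (by rw [hF]; decide)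
  have : CharP F 2 := CharTwo.of_one_ne_zero_of_two_eq_zero one_ne_zero h2
  refine herm4_of hF (fun x y v => ?_) (fun c x v => ?_) fun v w => ?_
  · simp [hermForm, add_mul, Finset.sum_add_distrib]
  · simp [hermForm, Finset.mul_sum, mul_assoc]
  · rw [hermForm, hermForm, sum_pow_char]
    refine Finset.sum_congr rfl fun i _ => ?_
    have := FiniteField.pow_card (v i)
    rw [hF] at this
    rw [mul_pow, ← pow_mul, this, mul_comm]

omit [Fintype F] in
theorem su_eq (n q : ℕ) : GU n F q ⊓ specialLinear (Fin n) F =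
    (isoV (hermForm n F q) ⊓ SLV F (Fin n → F)).comap
      (toEquiv (ι := Fin n) (F := F)).toMonoidHom := by
  rw [GU_eq, specialLinear_eq, Subgroup.comap_inf]

/-- Decompositions of the unitary space over the field with four elements into planes. -/
theorem su_dec_not_maximal (hF : Fintype.card F = 4) {n t : ℕ}
    {D : Fin t → Submodule F (Fin n → F)}
    (hD : IsNondegenerateMDecomposition (hermForm n F 2) 2 D) :
    ∃ K, decompositionStabilizer D ⊓ (GU n F 2 ⊓ specialLinear (Fin n) F) < K ∧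
      K < GU n F 2 ⊓ specialLinear (Fin n) F := by
  have ht := hD.decomp.two_le
  exact btw_gl (decompositionStabilizer_eq D) (su_eq n 2)
    (btw_su_dec (herm4_hermForm hF n) (odec_of hD) (i := ⟨0, by omega⟩) (j := ⟨1, by omega⟩)
      (by simp) (hD.decomp.finrank_eq _) (hD.decomp.finrank_eq _))

/-- Tensor decompositions of the unitary space over the field with four elements with a
two-dimensional factor. -/
theorem su_tensor_not_maximal (hF : Fintype.card F = 4) {n n₂ : ℕ} (h2 : 2 ≤ n₂)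
    {e : Fin n ≃ Fin 2 × Fin n₂} {P : GL (Fin n) F} {f₁ : (Fin 2 → F) → (Fin 2 → F) → F}
    {f₂ : (Fin n₂ → F) → (Fin n₂ → F) → F} (hf₁ : IsUnitaryFormPow 2 f₁)
    (hf₂ : IsUnitaryFormPow 2 f₂)
    (hT : IsTensorFormStructure (fun x : F => x ^ 2) (hermForm n F 2) f₁ f₂ e P) :
    ∃ K, tensorProductSubgroup 2 n₂ e P ⊓ (GU n F 2 ⊓ specialLinear (Fin n) F) < K ∧
      K < GU n F 2 ⊓ specialLinear (Fin n) F := by
  have H₁ := herm4_of hF hf₁.add_left hf₁.smul_left hf₁.herm
  have H₂ := herm4_of hF hf₂.add_left hf₂.smul_left hf₂.herm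
  have : CharP F 2 := CharTwo.of_one_ne_zero_of_two_eq_zero one_ne_zero H₁.two
  obtain ⟨c, hc, hτ⟩ := tau_form (σ := frobenius F 2)
    ⟨H₁.add_left, H₁.smul_left, H₁.add_right, H₁.smul_right⟩
    ⟨H₂.add_left, H₂.smul_left, H₂.add_right, H₂.smul_right⟩ hT
  refine btw_gl (eq_comap_map _) (su_eq n 2)
    (btw_su_tensor (herm4_hermForm hF n) H₁ H₂ (fun w hw => ?_) (fun w hw => ?_) (by simp)
      (by simpa using h2) hc hτ (actsPure_tau e P))
  · by_contra h0
    obtain ⟨x, hx⟩ := (hf₁.nondegenerate w h0).1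
    exact hx (hw x)
  · by_contra h0
    obtain ⟨x, hx⟩ := (hf₂.nondegenerate w h0).1
    exact hx (hw x)

end MatGL

end CfsgLib.NonMax
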