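import Mathlib
import Cfsg.Agent.Lib.NonMax.Basic

/-!
Non-maximal subspace stabilisers in `Ω`: planes of plus type over fields with at most three
elements, next-to-maximal totally singular subspaces in plus type, and pairs of Lagrangians of odd
dimension.
-/

set_option autoImplicit false

namespace CfsgLib.NonMax

open CfsgLib.Orth CfsgLib.ClMax Module QuadraticMap Cfsg Cfsg.Geo
open CfsgLib.RootMax (Om toQF toQF_coe toQF_nondeg omegaGL_eq_Om)
open scoped MatrixGroups

section Abstract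

variable {F V : Type*} [Field F] [AddCommGroup V] [Module F V] {Q : QuadraticForm F V}
  [FiniteDimensional F V]

theorem btw_plane [Finite F] (hQ : (polarBilin Q).Nondegenerate) (h5 : 5 ≤ finrank F V)
    (hsq : ∀ x : F, x ≠ 0 → x * x = 1) {W U : Submodule F V} (hW : NdOn Q W)
    (hdim : finrank F W = 2) (hUW : U ≤ W) (hU : ∀ u ∈ U, Q u = 0)
    (hU2 : 2 * finrank F U = finrank F W) : ∃ K, stabV W ⊓ Om Q < K ∧ K < Om Q := by
  have : Finite V := Module.finite_of_finite F
  obtain ⟨e, he, f, hf, hQe, hQf, hef, hsp⟩ := exists_hyp_pair hW hdim hUW hU hU2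
  obtain ⟨u, hu0, hu, huW⟩ := exists_singular_perp hQ (W := W) (by omega)
  have huW' : u ∉ W := fun h => hu0 (hW u h fun x hx => by rw [polar_comm]; exact huW x hx)
  have hee : polar Q e e = 0 := by rw [polar_self', hQe, mul_zero]
  have hff : polar Q f f = 0 := by rw [polar_self', hQf, mul_zero]
  have hfe : polar Q f e = 1 := by rw [polar_comm, hef]
  refine btw_of_set (X := {v | v ∈ W ∧ Q v = 1}) (Set.toFinite _) ?_ ?_ ?_
  · intro g hg hg' v hv
    exact ⟨(hg v).1 hv.1, by rw [LinearEquiv.smul_def, Om_map_Q hg', hv.2]⟩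
  · have hw : polar Q u (e - f) = 0 := huW _ (W.sub_mem he hf)
    refine ⟨_, eichler_mem_Om hQ h5 hu hw, fun h => ?_, ?_⟩
    · have := (h e).1 he
      rw [eichler_apply_of_perp hu hw (huW e he), polar_sub_left, hee, hfe] at this
      apply huW'
      have h2 := W.sub_mem he this
      simpa using h2
    · rintro v ⟨hv, hv1⟩
      rw [LinearEquiv.smul_def, eichler_apply_of_perp hu hw (huW v hv)]
      obtain ⟨x, y, rfl⟩ := hsp v hv
      rw [Q_hyp hQe hQf hef] at hv1
      have hx : x ≠ 0 := left_ne_zero_of_mul_eq_one hv1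
      have hxy : x = y := mul_left_cancel₀ hx (by rw [hsq x hx, hv1])
      have : polar Q (e - f) (x • e + y • f) = 0 := by
        simp only [polar_sub_left, polar_add_right, polar_smul_right, hee, hef, hfe, hff,
          smul_eq_mul, hxy]
        ring
      rw [this, zero_smul, add_zero]
      exact ⟨hv, by rw [Q_hyp hQe hQf hef, hv1]⟩
  · have hw : polar Q u e = 0 := huW _ he
    refine ⟨_, eichler_mem_Om hQ h5 hu hw, e + f, ⟨W.add_mem he hf, ?_⟩, fun h => ?_⟩
    · rw [Q_add, hQe, hQf, hef]; simp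
    · have h1 := h.1
      rw [LinearEquiv.smul_def, eichler_apply_of_perp hu hw (huW _ (W.add_mem he hf)),
        polar_add_right, hee, hef, zero_add, one_smul] at h1
      exact huW' (by simpa using W.sub_mem h1 (W.add_mem he hf))

/-- `Ω` does not stabilise a totally singular subspace of dimension at least two. -/
theorem exists_Om_move_singular (hQ : (polarBilin Q).Nondegenerate) (h5 : 5 ≤ finrank F V)
    {U : Submodule F V} (hU : ∀ u ∈ U, Q u = 0) (h2 : 2 ≤ finrank F U) :
    ∃ g ∈ Om Q, ∃ z ∈ U, g z ∉ U := by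
  have hU0 : U ≠ ⊥ := by
    intro h
    rw [h, finrank_bot] at h2
    omega
  obtain ⟨e, he, he0⟩ := (Submodule.ne_bot_iff _).1 hU0
  obtain ⟨f', hf⟩ := exists_polar_eq hQ he0 1
  have hQe := hU e he
  have hee : polar Q e e = 0 := by rw [polar_self', hQe, mul_zero]
  have hef : polar Q e (f' - Q f' • e) = 1 := by
    rw [polar_sub_right, polar_smul_right, hf, hee]; simp
  have hQf : Q (f' - Q f' • e) = 0 := by
    rw [Q_sub, Q_smul, hQe, polar_smul_right, polar_comm, hf]; simp
  set f := f' - Q f' • e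
  have hfU : f ∉ U := fun h => by
    rw [polar_eq_zero_of_singular hU he h] at hef
    exact zero_ne_one hef
  obtain ⟨z, hz, hz0, hfz⟩ := exists_ne_zero_perp (Q := Q) h2 f
  have hzf : z ∉ Submodule.span F {f} := by
    intro h
    obtain ⟨c, rfl⟩ := Submodule.mem_span_singleton.1 h
    have hc : c ≠ 0 := by rintro rfl; exact hz0 (zero_smul _ _)
    exact hfU ((U.smul_mem_iff hc).1 hz)
  obtain ⟨g, hg, hgz, -⟩ := exists_Om_add hQ h5 hQf hfz hzf
  refine ⟨g, hg, z, hz, fun h => hfU ?_⟩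
  rw [hgz] at h
  simpa using U.sub_mem h hz

omit [FiniteDimensional F V] in
theorem act_eq_of_stabV {g : OG Q} {W : Submodule F V} (h : g.1 ∈ stabV W) : act g W = W :=
  mem_stabV_iff_map.1 h

theorem exists_maximal_singular {W : Submodule F V} (hW : ∀ u ∈ W, Q u = 0) :
    ∃ U : Submodule F V, W ≤ U ∧ (∀ u ∈ U, Q u = 0) ∧
      ∀ X : Submodule F V, (∀ u ∈ X, Q u = 0) → U ≤ X → X = U := by
  obtain ⟨U, hU, hmax⟩ := set_has_maximal_iff_noetherian.2 (inferInstance : IsNoetherian F V)
    {X : Submodule F V | W ≤ X ∧ ∀ u ∈ X, Q u = 0} ⟨W, le_rfl, hW⟩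
  refine ⟨U, hU.1, hU.2, fun X hX hUX => ?_⟩
  by_contra hne
  exact hmax X ⟨hU.1.trans hUX, hX⟩ (lt_of_le_of_ne hUX (Ne.symm hne))

theorem btw_submax [Finite F] (hQ : (polarBilin Q).Nondegenerate) (h5 : 5 ≤ finrank F V)
    {U₀ : Submodule F V} (h₀ : IsLag Q U₀) {W : Submodule F V} (hW : ∀ u ∈ W, Q u = 0)
    (hdim : 2 * (finrank F W + 1) = finrank F V) : ∃ K, stabV W ⊓ Om Q < K ∧ K < Om Q := by
  have : Finite V := Module.finite_of_finite F
  obtain ⟨U, hWU, hU, hmax⟩ := exists_maximal_singular hW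
  have hL : IsLag Q U := (isLag_iff_maximal hQ h₀).2 ⟨hU, hmax⟩
  have hd := hL.2
  have h24 : Nat.card F ≠ 2 ∨ finrank F V ≠ 4 := Or.inr (by omega)
  refine btw_of_set (X := (U : Set V)) (Set.toFinite _) ?_ ?_ ?_
  · intro g hg hg' v hv
    obtain ⟨k, hk, rfl⟩ := exists_of_mem_Om hg'
    have h1 := (dickson_eq_one_iff_lag hQ h24 hL k).1 ((mem_commutator_iff hQ h24 k).1 hk).1
    have h2 : W ≤ U ⊓ act k U := le_inf hWU (by
      rw [← act_eq_of_stabV hg]; exact Submodule.map_mono hWU)
    have h3 := Submodule.finrank_mono h2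
    have h4 : finrank F ↥(U ⊓ act k U) ≤ finrank F U := Submodule.finrank_mono inf_le_left
    have h5 : finrank F ↥(U ⊓ act k U) = finrank F (act k U) := by
      rw [finrank_act]
      rw [Nat.even_iff] at h1
      omega
    have h6 := Submodule.eq_of_le_of_finrank_eq (inf_le_right : U ⊓ act k U ≤ act k U) h5
    have h7 : k.1 v ∈ act k U := mem_act.2 ⟨v, hv, rfl⟩
    rw [← h6] at h7
    exact h7.1
  · obtain ⟨u, hu, huW⟩ : ∃ u ∈ U, u ∉ W := by
      by_contra h
      push Not at h
      have := Submodule.finrank_mono (show U ≤ W from h)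
      omega
    have hW0 : W ≠ ⊥ := by
      intro h
      rw [h, finrank_bot] at hdim
      omega
    obtain ⟨w, hw, hw0⟩ := (Submodule.ne_bot_iff _).1 hW0
    have hwu : w ∉ Submodule.span F {u} := by
      intro h
      obtain ⟨c, rfl⟩ := Submodule.mem_span_singleton.1 h
      have hc : c ≠ 0 := by rintro rfl; exact hw0 (zero_smul _ _)
      exact huW ((W.smul_mem_iff hc).1 hw)
    obtain ⟨g, hg, hgw, hg'⟩ := exists_Om_add hQ h5 (hU u hu)
      (polar_eq_zero_of_singular hU hu (hWU hw)) hwu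
    refine ⟨g, hg, fun h => huW ?_, fun v hv => ?_⟩
    · have := (h w).1 hw
      rw [hgw] at this
      simpa using W.sub_mem this hw
    · obtain ⟨c, hc⟩ := hg' v (polar_eq_zero_of_singular hU hu hv)
      rw [LinearEquiv.smul_def, hc]
      exact U.add_mem hv (U.smul_mem _ hu)
  · exact exists_Om_move_singular hQ h5 hU (by omega)

theorem btw_lagPair [Finite F] (hQ : (polarBilin Q).Nondegenerate) (h5 : 5 ≤ finrank F V)
    {D : Fin 2 → Submodule F V} (hD : ∀ i, IsLag Q (D i)) (hodd : Odd (finrank F (D 0)))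
    (hdis : D 0 ⊓ D 1 = ⊥) : ∃ K, decompV D ⊓ Om Q < K ∧ K < Om Q := by
  have : Finite V := Module.finite_of_finite F
  have h24 : Nat.card F ≠ 2 ∨ finrank F V ≠ 4 := Or.inr (by omega)
  have hd0 := (hD 0).2
  have hd1 := (hD 1).2
  have hz : ∀ {z}, z ∈ D 0 → z ∈ D 1 → z = 0 := fun h0 h1 =>
    (Submodule.mem_bot F).1 (hdis ▸ Submodule.mem_inf.2 ⟨h0, h1⟩)
  refine btw_of_set (X := (D 0 : Set V)) (Set.toFinite _) ?_ ?_ ?_
  · rintro g ⟨σ, hσ⟩ hg' v hv
    obtain ⟨k, hk, rfl⟩ := exists_of_mem_Om hg'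
    have h1 := (dickson_eq_one_iff_lag hQ h24 (hD 0) k).1 ((mem_commutator_iff hQ h24 k).1 hk).1
    have h2 : act k (D 0) = D (σ 0) := hσ 0
    have h3 : σ 0 = 0 := by
      by_contra h
      have h4 : σ 0 = 1 := by omega
      rw [h2, h4, hdis, finrank_bot, Nat.sub_zero] at h1
      exact (Nat.not_even_iff_odd.2 hodd) h1
    have h7 : k.1 v ∈ act k (D 0) := mem_act.2 ⟨v, hv, rfl⟩
    rwa [h2, h3] at h7
  · obtain ⟨u, hu, hu0, -⟩ := exists_ne_zero_perp (Q := Q) (W := D 0) (by omega) 0
    obtain ⟨w, hw, hwu⟩ : ∃ w ∈ D 0, w ∉ Submodule.span F {u} := by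
      by_contra h
      push Not at h
      have h1 := Submodule.finrank_mono (show D 0 ≤ Submodule.span F {u} from h)
      rw [finrank_span_singleton hu0] at h1
      omega
    obtain ⟨z, hz1, huz⟩ : ∃ z ∈ D 1, polar Q u z ≠ 0 := by
      by_contra h
      push Not at h
      apply hu0
      apply hz hu
      rw [← (hD 1).orthogonal_eq hQ]
      exact fun x hx => by
        change polar Q x u = 0
        rw [polar_comm]; exact h x hx
    have huw := polar_eq_zero_of_singular (hD 0).1 hu hw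
    have hQu := (hD 0).1 u hu
    have hz0 : z ≠ 0 := by rintro rfl; exact huz (polar_zero_right Q u)
    refine ⟨_, eichler_mem_Om hQ h5 hQu huw, ?_, fun v hv => ?_⟩
    · rintro ⟨σ, hσ⟩
      have h1 : (eichler Q u w hQu huw).1 z ∈ D (σ 1) := by
        rw [← hσ 1]; exact ⟨z, hz1, rfl⟩
      rw [eichler_apply, (hD 0).1 w hw, zero_mul, zero_smul, sub_zero, add_sub_assoc] at h1
      have hd : polar Q w z • u - polar Q u z • w ∈ D 0 :=
        (D 0).sub_mem ((D 0).smul_mem _ hu) ((D 0).smul_mem _ hw)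
      by_cases h3 : σ 1 = 0
      · rw [h3] at h1
        exact hz0 (hz (by simpa using (D 0).sub_mem h1 hd) hz1)
      · have h4 : σ 1 = 1 := by omega
        rw [h4] at h1
        have h5 := hz hd (by simpa using (D 1).sub_mem h1 hz1)
        apply hwu
        rw [Submodule.mem_span_singleton]
        refine ⟨polar Q w z / polar Q u z, ?_⟩
        rw [sub_eq_zero] at h5
        rw [div_eq_inv_mul, mul_smul, h5, smul_smul, inv_mul_cancel₀ huz, one_smul]
    · rw [LinearEquiv.smul_def,
        eichler_apply_of_perp hQu huw (polar_eq_zero_of_singular (hD 0).1 hu hv)]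
      exact (D 0).add_mem hv ((D 0).smul_mem _ hu)
  · exact exists_Om_move_singular hQ h5 (hD 0).1 (by omega)

end Abstract

section MatGL

variable {F : Type*} [Field F] [Fintype F] {ι : Type} [Fintype ι] [DecidableEq ι]

/-- Planes of plus type over fields with at most three elements. -/
theorem omega_plane_not_maximal {Q : (ι → F) → F} (hQ : IsNondegenerateQuadraticForm Q)
    (h5 : 5 ≤ Fintype.card ι) (hq : Fintype.card F ≤ 3) {W : Submodule F (ι → F)}
    (hdim : finrank F W = 2) (hW : IsNondegenerateOn (polar Q) W) (hWp : IsPlusTypeOn Q W) :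
    ∃ K, subspaceStabilizer W ⊓ omegaGL Q < K ∧ K < omegaGL Q := by
  obtain ⟨U, hUW, hU, hU2⟩ := hWp
  exact btw_gl (subspaceStabilizer_eq W) (omegaGL_eq_Om (toQF hQ))
    (btw_plane (toQF_nd hQ) (by simpa using h5) (fun _ hx => mul_self_eq_one_of_card_le hq hx)
      (ndOn_of (Q := toQF hQ) hW) hdim hUW hU hU2)

/-- Next-to-maximal totally singular subspaces in plus type. -/
theorem omega_submax_not_maximal {Q : (ι → F) → F} (hQ : IsNondegenerateQuadraticForm Q)
    (h5 : 5 ≤ Fintype.card ι) (hplus : IsPlusTypeOn Q ⊤) {W : Submodule F (ι → F)}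
    (hW : IsTotallySingularQuad Q W) (hdim : 2 * (finrank F W + 1) = Fintype.card ι) :
    ∃ K, subspaceStabilizer W ⊓ omegaGL Q < K ∧ K < omegaGL Q := by
  obtain ⟨U, -, hU, hU2⟩ := hplus
  rw [finrank_top] at hU2
  exact btw_gl (subspaceStabilizer_eq W) (omegaGL_eq_Om (toQF hQ))
    (btw_submax (toQF_nd hQ) (by simpa using h5) (U₀ := U) ⟨hU, hU2⟩ hW (by simpa using hdim))

/-- Two complementary totally singular subspaces of odd dimension. -/
theorem omega_lagPair_not_maximal {Q : (ι → F) → F} (hQ : IsNondegenerateQuadraticForm Q)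
    (h5 : 5 ≤ Fintype.card ι) {k : ℕ} (hk : 2 * k = Fintype.card ι) (hko : Odd k)
    {D : Fin 2 → Submodule F (ι → F)} (hD : IsMDecomposition k D)
    (hts : ∀ i, IsTotallySingularQuad Q (D i)) :
    ∃ K, decompositionStabilizer D ⊓ omegaGL Q < K ∧ K < omegaGL Q := by
  refine btw_gl (decompositionStabilizer_eq D) (omegaGL_eq_Om (toQF hQ))
    (btw_lagPair (toQF_nd hQ) (by simpa using h5)
      (fun i => ⟨hts i, by rw [hD.finrank_eq]; simpa using hk⟩) (by rwa [hD.finrank_eq]) ?_)
  exact disjoint_iff.1 (hD.indep.pairwiseDisjoint (by decide : (0 : Fin 2) ≠ 1))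

end MatGL

end CfsgLib.NonMax
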